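import Mathlib
import Cfsg.Prelude.Def_GeometricClasses
import Cfsg.Prelude.Def_Classical

/-! Sub-CALL TSR2 (helper90), piece SKBASIS: an isometry `M` with `M² = -1` has an "orthogonal
frame" `v j` with `Q (v j) ≠ 0` and `⟨v j, M v j⟩ ⊥ ⟨v l, M v l⟩` for `j ≠ l`. -/

set_option autoImplicit false
set_option linter.unusedVariables false

namespace Cfsg.Agent.Helper6.TSR2

open Module Cfsg Cfsg.Geo
open scoped MatrixGroups

variable {ι : Type} [Fintype ι] [DecidableEq ι] {F : Type*} [Field F] [Fintype F]

/-- SKBASIS [L]: `V` is the orthogonal sum of `d` invariant anisotropic planes `⟨v j, M v j⟩`. -/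
theorem r2_skew_basis (Q : (ι → F) → F) (hQ : IsNondegenerateQuadraticForm Q) (h2 : (2 : F) ≠ 0)
    (d : ℕ) (hcard : Fintype.card ι = 2 * d) (M : Matrix ι ι F) (hM : ∀ v, Q (M.mulVec v) = Q v)
    (hM2 : M * M = -1) (hm1 : ¬ IsSquare (-1 : F)) :
    ∃ v : Fin d → (ι → F), (∀ j, Q (v j) ≠ 0) ∧
      ∀ j l, j ≠ l → QuadraticMap.polar Q (v j) (v l) = 0 ∧
        QuadraticMap.polar Q (v j) (M.mulVec (v l)) = 0 := by
  classical
  have hbil := hQ.polar_bilinear
  have hsymm : ∀ x y, QuadraticMap.polar Q x y = QuadraticMap.polar Q y x :=
    fun x y => QuadraticMap.polar_comm Q x y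
  have hself : ∀ x, QuadraticMap.polar Q x x = 2 * Q x := by
    intro x
    have h1 : Q (x + x) = 4 * Q x := by
      have h3 := hQ.smul 2 x
      rw [two_smul] at h3
      rw [h3]
      ring
    show Q (x + x) - Q x - Q x = 2 * Q x
    rw [h1]
    ring
  have hiso : ∀ x y, QuadraticMap.polar Q (M.mulVec x) (M.mulVec y) = QuadraticMap.polar Q x y := by
    intro x y
    show Q (M.mulVec x + M.mulVec y) - Q (M.mulVec x) - Q (M.mulVec y) = Q (x + y) - Q x - Q y
    rw [← Matrix.mulVec_add, hM, hM, hM]
  have hMM : ∀ x, M.mulVec (M.mulVec x) = -x := by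
    intro x
    rw [Matrix.mulVec_mulVec, hM2, Matrix.neg_mulVec, Matrix.one_mulVec]
  have hnegL : ∀ x y, QuadraticMap.polar Q (-x) y = - QuadraticMap.polar Q x y := by
    intro x y
    have h3 := hbil.smul_left (-1) x y
    simpa using h3
  have hskew : ∀ x y, QuadraticMap.polar Q (M.mulVec x) y = - QuadraticMap.polar Q x (M.mulVec y) := by
    intro x y
    have h3 := hiso (M.mulVec x) y
    rw [hMM, hnegL] at h3
    rw [← h3]
  have hperp : ∀ x, QuadraticMap.polar Q x (M.mulVec x) = 0 := by
    intro x
    have h1 := hskew x x
    rw [hsymm] at h1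
    have h3 : 2 * QuadraticMap.polar Q x (M.mulVec x) = 0 := by linear_combination h1
    exact (mul_eq_zero.1 h3).resolve_left h2
  have hzeroL : ∀ z, QuadraticMap.polar Q 0 z = 0 := by
    intro z
    have h3 := hbil.smul_left 0 0 z
    simpa using h3
  have hsumL : ∀ (k : ℕ) (s : Finset (Fin k)) (c : Fin k → F) (u : Fin k → (ι → F)) (z : ι → F),
      QuadraticMap.polar Q (∑ j ∈ s, c j • u j) z = ∑ j ∈ s, c j * QuadraticMap.polar Q (u j) z := by
    intro k s c u z
    induction s using Finset.induction_on with
    | empty => simp [hzeroL]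
    | insert a s ha ih =>
      rw [Finset.sum_insert ha, Finset.sum_insert ha, hbil.add_left, hbil.smul_left, ih]
  have key : ∀ k : ℕ, k ≤ d → ∃ v : Fin k → (ι → F), (∀ j, Q (v j) ≠ 0) ∧
      ∀ j l, j ≠ l → QuadraticMap.polar Q (v j) (v l) = 0 ∧
        QuadraticMap.polar Q (v j) (M.mulVec (v l)) = 0 := by
    intro k
    induction k with
    | zero =>
      intro _
      exact ⟨fun j => j.elim0, fun j => j.elim0, fun j => j.elim0⟩
    | succ k ih =>
      intro hk
      obtain ⟨v, hv, hvv⟩ := ih (by omega)
      let f : (ι → F) →ₗ[F] (Fin k ⊕ Fin k → F) :=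
        { toFun := fun x => Sum.elim (fun j => QuadraticMap.polar Q x (v j))
            (fun j => QuadraticMap.polar Q x (M.mulVec (v j)))
          map_add' := by
            intro x y
            funext s
            rcases s with j | j
            · simp only [Sum.elim_inl, Pi.add_apply]
              exact hbil.add_left x y _
            · simp only [Sum.elim_inr, Pi.add_apply]
              exact hbil.add_left x y _
          map_smul' := by
            intro c x
            funext s
            rcases s with j | j
            · simp only [Sum.elim_inl, Pi.smul_apply, smul_eq_mul, RingHom.id_apply]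
              exact hbil.smul_left c x _
            · simp only [Sum.elim_inr, Pi.smul_apply, smul_eq_mul, RingHom.id_apply]
              exact hbil.smul_left c x _ }
      have hdim : finrank F (Fin k ⊕ Fin k → F) < finrank F (ι → F) := by
        rw [Module.finrank_fintype_fun_eq_card, Module.finrank_fintype_fun_eq_card, hcard,
          Fintype.card_sum, Fintype.card_fin]
        omega
      have hker := LinearMap.ker_ne_bot_of_finrank_lt (f := f) hdim
      obtain ⟨x, hxk, hx0⟩ := (Submodule.ne_bot_iff _).1 hker
      have hxv : ∀ j, QuadraticMap.polar Q x (v j) = 0 := fun j =>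
        congrFun (LinearMap.mem_ker.1 hxk) (Sum.inl j)
      have hxMv : ∀ j, QuadraticMap.polar Q x (M.mulVec (v j)) = 0 := fun j =>
        congrFun (LinearMap.mem_ker.1 hxk) (Sum.inr j)
      obtain ⟨y, hyv, hyMv, hyQ⟩ : ∃ y, (∀ j, QuadraticMap.polar Q y (v j) = 0) ∧
          (∀ j, QuadraticMap.polar Q y (M.mulVec (v j)) = 0) ∧ Q y ≠ 0 := by
        by_contra hcon
        push Not at hcon
        obtain ⟨w, hw⟩ := (hQ.nondegenerate x hx0).2
        set c : Fin k → F := fun j => QuadraticMap.polar Q w (v j) / (2 * Q (v j)) with hc
        set c' : Fin k → F := fun j => QuadraticMap.polar Q w (M.mulVec (v j)) / (2 * Q (v j))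
          with hc'
        set S₁ : ι → F := ∑ j, c j • v j with hS₁
        set S₂ : ι → F := ∑ j, c' j • M.mulVec (v j) with hS₂
        set w' : ι → F := w + (-1 : F) • S₁ + (-1 : F) • S₂ with hw'
        have hexp : ∀ z, QuadraticMap.polar Q w' z = QuadraticMap.polar Q w z -
            QuadraticMap.polar Q S₁ z - QuadraticMap.polar Q S₂ z := by
          intro z
          rw [hw', hbil.add_left, hbil.add_left, hbil.smul_left, hbil.smul_left]
          ring
        have hq : ∀ l, 2 * Q (v l) ≠ 0 := fun l => mul_ne_zero h2 (hv l)
        have hw'v : ∀ l, QuadraticMap.polar Q w' (v l) = 0 := by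
          intro l
          rw [hexp, hS₁, hS₂, hsumL, hsumL]
          rw [Finset.sum_eq_single l (fun j _ hjl => by rw [(hvv j l hjl).1, mul_zero])
            (fun h => absurd (Finset.mem_univ l) h)]
          rw [Finset.sum_eq_zero (fun j _ => by
            rw [hskew]
            by_cases hjl : j = l
            · rw [hjl, hperp, neg_zero, mul_zero]
            · rw [(hvv j l hjl).2, neg_zero, mul_zero])]
          rw [hself]
          have hcl : c l * (2 * Q (v l)) = QuadraticMap.polar Q w (v l) := by
            rw [hc]
            exact div_mul_cancel₀ _ (hq l)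
          rw [hcl]
          ring
        have hw'Mv : ∀ l, QuadraticMap.polar Q w' (M.mulVec (v l)) = 0 := by
          intro l
          rw [hexp, hS₁, hS₂, hsumL, hsumL]
          rw [Finset.sum_eq_zero (fun j _ => by
            by_cases hjl : j = l
            · rw [hjl, hperp, mul_zero]
            · rw [(hvv j l hjl).2, mul_zero])]
          rw [Finset.sum_eq_single l (fun j _ hjl => by rw [hiso, (hvv j l hjl).1, mul_zero])
            (fun h => absurd (Finset.mem_univ l) h)]
          rw [hiso, hself]
          have hcl : c' l * (2 * Q (v l)) = QuadraticMap.polar Q w (M.mulVec (v l)) := by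
            rw [hc']
            exact div_mul_cancel₀ _ (hq l)
          rw [hcl]
          ring
        have hxw' : QuadraticMap.polar Q x w' = QuadraticMap.polar Q x w := by
          rw [hsymm x w', hexp, hS₁, hS₂, hsumL, hsumL, hsymm w x]
          rw [Finset.sum_eq_zero (fun j _ => by rw [hsymm, hxv, mul_zero])]
          rw [Finset.sum_eq_zero (fun j _ => by rw [hsymm, hxMv, mul_zero])]
          ring
        have q1 := hcon x hxv hxMv
        have q2 := hcon w' hw'v hw'Mv
        have q3 := hcon (x + w') (fun j => by rw [hbil.add_left, hxv, hw'v, add_zero])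
          (fun j => by rw [hbil.add_left, hxMv, hw'Mv, add_zero])
        apply hw
        rw [← hxw']
        show Q (x + w') - Q x - Q w' = 0
        rw [q1, q2, q3]
        ring
      refine ⟨Fin.cons y v, ?_, ?_⟩
      · intro j
        induction j using Fin.cases with
        | zero => simpa using hyQ
        | succ j => simpa using hv j
      · intro j l hjl
        induction j using Fin.cases with
        | zero =>
          induction l using Fin.cases with
          | zero => exact absurd rfl hjl
          | succ l =>
            simp only [Fin.cons_zero, Fin.cons_succ]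
            exact ⟨hyv l, hyMv l⟩
        | succ j =>
          induction l using Fin.cases with
          | zero =>
            simp only [Fin.cons_zero, Fin.cons_succ]
            refine ⟨by rw [hsymm]; exact hyv j, ?_⟩
            rw [hsymm, hskew, hyMv, neg_zero]
          | succ l =>
            simp only [Fin.cons_succ]
            exact hvv j l (fun h => hjl (by rw [h]))
  exact key d le_rfl

end Cfsg.Agent.Helper6.TSR2
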