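import Cfsg.Agent.Helper22.Fitting
import Cfsg.Agent.Helper32.HallHigman

/-! CALL BG15 (helper25), piece NC: basic facts on `O_{q'}(L)` and `O_q(L)` inside `Γ`. -/

set_option autoImplicit false

namespace Cfsg.Agent.Helper6

open Cfsg Subgroup

universe u

variable {Γ : Type u} [Group Γ] [Finite Γ]

/-- NC. Basic facts on `O_{q'}(L)` and `O_q(L)` as subgroups of `Γ`. -/
theorem bg15_core_facts (L : Subgroup Γ) [L.Normal] {q : ℕ} (hq : q.Prime) :
    ((Cfsg.pPrimeCore q ↥L).map L.subtype).Normal ∧ (Cfsg.pPrimeCore q ↥L).map L.subtype ≤ L ∧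
      (Nat.card ↥((Cfsg.pPrimeCore q ↥L).map L.subtype)).Coprime q ∧
      ((Cfsg.pCore q ↥L).map L.subtype).Normal ∧ (Cfsg.pCore q ↥L).map L.subtype ≤ L ∧
      IsPGroup q ↥((Cfsg.pCore q ↥L).map L.subtype) := by
  have : Fact q.Prime := ⟨hq⟩
  have h1 := Cfsg.Agent.Helper22.pPrimeCore_characteristic q ↥L
  have h2 := Cfsg.Agent.Helper22.pCore_characteristic q ↥L
  refine ⟨ConjAct.normal_of_characteristic_of_normal, Subgroup.map_subtype_le _, ?_,
    ConjAct.normal_of_characteristic_of_normal, Subgroup.map_subtype_le _, ?_⟩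
  · rw [Subgroup.card_map_of_injective (Subgroup.subtype_injective L)]
    exact Cfsg.Agent.Helper22.card_pPrimeCore_coprime q ↥L
  · exact (Cfsg.Agent.Helper32.pCore_isPGroup' q ↥L).map L.subtype

end Cfsg.Agent.Helper6
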