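import Mathlib
import Cfsg.Agent.Helper3.SU2Defs

/-! CALL S2412C (helper3), piece FIN. -/

set_option autoImplicit false

namespace Cfsg.Agent.Helper6

open Cfsg.Agent.Helper3.SU2 Cfsg.Agent.Helper13

variable {F : Type*} [Field F] [Fintype F] {n : ℕ}

-- === PIECE FIN ===
theorem su2c_fin {Φ : Set (Fin n → F)}
    (hsmall : ∀ v : Fin n → F, (supp v).card ≤ 3 → v ∈ Φ)
    (hred : ∀ (v : Fin n → F) (i1 i2 i3 i4 : Fin n), i1 ≠ i2 → i1 ≠ i3 → i1 ≠ i4 → i2 ≠ i3 →
      i2 ≠ i4 → i3 ≠ i4 → v i1 ≠ 0 → v i2 ≠ 0 → v i3 ≠ 0 → v i4 ≠ 0 →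
      (∀ y : Fin n → F, (supp y).card < (supp v).card → y ∈ Φ) → v ∈ Φ) :
    ∀ v : Fin n → F, v ∈ Φ := by
  classical
  have key : ∀ (m : ℕ) (v : Fin n → F), (supp v).card = m → v ∈ Φ := by
    intro m
    induction m using Nat.strong_induction_on with
    | _ m ih =>
      intro v h
      by_cases hm : m ≤ 3
      · exact hsmall v (h ▸ hm)
      · have hne : (supp v).Nonempty := Finset.card_pos.1 (by omega)
        obtain ⟨i1, hi1⟩ := hne
        have h3 : 2 < ((supp v).erase i1).card := by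
          rw [Finset.card_erase_of_mem hi1]
          omega
        obtain ⟨i2, hi2, i3, hi3, i4, hi4, h23, h24, h34⟩ := Finset.two_lt_card.1 h3
        rw [Finset.mem_erase] at hi2 hi3 hi4
        exact hred v i1 i2 i3 i4 (Ne.symm hi2.1) (Ne.symm hi3.1) (Ne.symm hi4.1) h23 h24 h34
          ((mem_supp v i1).1 hi1) ((mem_supp v i2).1 hi2.2) ((mem_supp v i3).1 hi3.2)
          ((mem_supp v i4).1 hi4.2) (fun y hy => ih _ (h ▸ hy) y rfl)
  exact fun v => key _ v rfl

end Cfsg.Agent.Helper6
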