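import Mathlib
import Cfsg.Agent.Helper3.SU2Defs

/-! CALL S2412C (helper3), piece RED. -/

set_option autoImplicit false
set_option linter.unusedVariables false

namespace Cfsg.Agent.Helper6

open Cfsg.Agent.Helper3.SU2 Cfsg.Agent.Helper13

variable {F : Type*} [Field F] [Fintype F] {n : ℕ}

omit [Fintype F] in
/-- a sum supported on four distinct points -/
theorem su2c_red_sum_four (f : Fin n → F) (i1 i2 i3 i4 : Fin n) (h12 : i1 ≠ i2) (h13 : i1 ≠ i3)
    (h14 : i1 ≠ i4) (h23 : i2 ≠ i3) (h24 : i2 ≠ i4) (h34 : i3 ≠ i4)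
    (hf : ∀ i, i ≠ i1 → i ≠ i2 → i ≠ i3 → i ≠ i4 → f i = 0) :
    ∑ i, f i = f i1 + f i2 + f i3 + f i4 := by
  classical
  rw [← Finset.sum_subset (Finset.subset_univ ({i1, i2, i3, i4} : Finset (Fin n)))]
  · rw [Finset.sum_insert, Finset.sum_insert, Finset.sum_insert, Finset.sum_singleton]
    · ring
    · simp [h34]
    · simp [h23, h24]
    · simp [h12, h13, h14]
  · intro i _ hi
    simp only [Finset.mem_insert, Finset.mem_singleton, not_or] at hi
    exact hf i hi.1 hi.2.1 hi.2.2.1 hi.2.2.2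

-- === PIECE RED ===
theorem su2c_red (hF : Fintype.card F = 2 ^ 2) {Φ : Set (Fin n → F)} (hΦ : PhiCl Φ)
    (ω : F) (hω0 : ω ≠ 0) (hω1 : 1 + ω ≠ 0) (hω : 1 + ω + ω ^ 2 = 0)
    (h4 : ∀ x : Fin n → F, (supp x).card = 4 → x ∈ Φ)
    (v : Fin n → F) (i1 i2 i3 i4 : Fin n) (h12 : i1 ≠ i2) (h13 : i1 ≠ i3) (h14 : i1 ≠ i4)
    (h23 : i2 ≠ i3) (h24 : i2 ≠ i4) (h34 : i3 ≠ i4)
    (hv1 : v i1 ≠ 0) (hv2 : v i2 ≠ 0) (hv3 : v i3 ≠ 0) (hv4 : v i4 ≠ 0)
    (IH : ∀ y : Fin n → F, (supp y).card < (supp v).card → y ∈ Φ) : v ∈ Φ := by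
  classical
  have h2 : (2 : F) = 0 := ufld2_two hF
  have hcube : ∀ a : F, a ≠ 0 → a * a ^ 2 = 1 := by
    intro a ha
    have h := ufld2_norm hF a ha
    rwa [Cfsg.Agent.Helper5.frobQ_apply] at h
  have hω3 : ω ^ 3 = 1 := by linear_combination (ω - 1) * hω
  have ha := hcube _ hv1
  have hb := hcube _ hv2
  have hc := hcube _ hv3
  have hd := hcube _ hv4
  set x : Fin n → F := fun i => if i = i1 then v i1 else if i = i2 then v i2 else
    if i = i3 then ω * v i3 else if i = i4 then ω ^ 2 * v i4 else 0 with hxdef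
  have hx1 : x i1 = v i1 := by simp [hxdef]
  have hx2 : x i2 = v i2 := by simp [hxdef, h12.symm]
  have hx3 : x i3 = ω * v i3 := by simp [hxdef, h13.symm, h23.symm]
  have hx4 : x i4 = ω ^ 2 * v i4 := by simp [hxdef, h14.symm, h24.symm, h34.symm]
  have hx0 : ∀ i, i ≠ i1 → i ≠ i2 → i ≠ i3 → i ≠ i4 → x i = 0 := by
    intro i e1 e2 e3 e4
    simp [hxdef, e1, e2, e3, e4]
  -- the support of x
  have hsx : supp x = {i1, i2, i3, i4} := by
    ext i
    rw [mem_supp]
    simp only [Finset.mem_insert, Finset.mem_singleton]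
    constructor
    · intro hi
      by_contra hcon
      push Not at hcon
      exact hi (hx0 i hcon.1 hcon.2.1 hcon.2.2.1 hcon.2.2.2)
    · rintro (rfl | rfl | rfl | rfl)
      · rw [hx1]; exact hv1
      · rw [hx2]; exact hv2
      · rw [hx3]; exact mul_ne_zero hω0 hv3
      · rw [hx4]; exact mul_ne_zero (pow_ne_zero 2 hω0) hv4
  have hxΦ : x ∈ Φ := by
    apply h4
    rw [hsx, Finset.card_insert_of_notMem, Finset.card_insert_of_notMem,
      Finset.card_insert_of_notMem, Finset.card_singleton]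
    · simp [h34]
    · simp [h23, h24]
    · simp [h12, h13, h14]
  -- x is isotropic
  have hxx : Cfsg.hermForm n F 2 x x = 0 := by
    rw [herm2_apply, su2c_red_sum_four (fun i => x i * x i ^ 2) i1 i2 i3 i4 h12 h13 h14 h23 h24 h34
      (fun i e1 e2 e3 e4 => by simp [hx0 i e1 e2 e3 e4])]
    simp only [hx1, hx2, hx3, hx4]
    linear_combination ha + hb + ω ^ 3 * hc + ω ^ 6 * hd + (1 + ω ^ 3 + 1) * hω3 + 2 * h2
  -- the vector y = v + x
  have hyv : ∀ i, v i = 0 → (v + x) i = 0 := by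
    intro i hi
    by_cases e1 : i = i1
    · subst e1; exact absurd hi hv1
    by_cases e2 : i = i2
    · subst e2; exact absurd hi hv2
    by_cases e3 : i = i3
    · subst e3; exact absurd hi hv3
    by_cases e4 : i = i4
    · subst e4; exact absurd hi hv4
    rw [Pi.add_apply, hi, hx0 i e1 e2 e3 e4, add_zero]
  have hy1 : (v + x) i1 = 0 := by
    rw [Pi.add_apply, hx1]
    linear_combination v i1 * h2
  have hyΦ : v + x ∈ Φ := by
    apply IH
    have hsub : supp (v + x) ⊆ (supp v).erase i1 := by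
      intro i hi
      rw [mem_supp] at hi
      rw [Finset.mem_erase, mem_supp]
      refine ⟨?_, fun h0 => hi (hyv i h0)⟩
      rintro rfl
      exact hi hy1
    have hlt : ((supp v).erase i1).card < (supp v).card :=
      Finset.card_erase_lt_of_mem ((mem_supp v i1).2 hv1)
    exact lt_of_le_of_lt (Finset.card_le_card hsub) hlt
  have hyx : Cfsg.hermForm n F 2 (v + x) x = 1 := by
    rw [herm2_apply, su2c_red_sum_four (fun i => (v + x) i * x i ^ 2) i1 i2 i3 i4 h12 h13 h14 h23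
      h24 h34 (fun i e1 e2 e3 e4 => by simp [hx0 i e1 e2 e3 e4])]
    simp only [Pi.add_apply, hx1, hx2, hx3, hx4]
    linear_combination (v i1 * v i1 ^ 2 + v i2 * v i2 ^ 2) * h2 + (1 + ω) * ω ^ 2 * hc +
      (1 + ω ^ 2) * ω ^ 4 * hd + hω + (1 + ω + ω ^ 3 + 1) * hω3
  have h := hΦ.tv x (v + x) hxΦ hyΦ hxx
  rw [hyx, one_smul] at h
  have e : v + x + x = v := by
    funext i
    simp only [Pi.add_apply]
    linear_combination x i * h2
  rwa [e] at h

end Cfsg.Agent.Helper6
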