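import Mathlib
import Cfsg.Agent.Helper3.SU2Defs

/-! CALL S2412C (helper3), piece W4. -/

set_option autoImplicit false
set_option linter.unusedVariables false

namespace Cfsg.Agent.Helper6

open Cfsg.Agent.Helper3.SU2 Cfsg.Agent.Helper13

variable {F : Type*} [Field F] [Fintype F] {n : ℕ}

-- === PIECE W4 ===
theorem su2c_w4 (hn : 5 ≤ n) {Φ : Set (Fin n → F)}
    (hmove : ∀ (v : Fin n → F), v ∈ Φ → ∀ i j : Fin n, i ≠ j → v j = 0 → ∀ ν : F, ν ≠ 0 →
      Function.update (Function.update v i 0) j (ν * v i) ∈ Φ)
    (hbase : ∀ v : Fin n → F, (∀ i : Fin n, v i ≠ 0 ↔ i.val < 4) → v ∈ Φ)
    (v : Fin n → F) (hv : (supp v).card = 4) : v ∈ Φ := by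
  classical
  have hIio : (Finset.Iio (⟨4, by omega⟩ : Fin n)).card = 4 := Fin.card_Iio _
  have hmemI : ∀ i : Fin n, i ∈ Finset.Iio (⟨4, by omega⟩ : Fin n) ↔ i.val < 4 := by
    intro i
    rw [Finset.mem_Iio, Fin.lt_def]
  have key : ∀ (m : ℕ) (v : Fin n → F), (supp v).card = 4 →
      ((supp v).filter (fun i : Fin n => 4 ≤ i.val)).card = m → v ∈ Φ := by
    intro m
    induction m using Nat.strong_induction_on with
    | _ m ih =>
      intro v hv hm
      by_cases hm0 : m = 0
      · -- all the support is below 4
        subst hm0
        rw [Finset.card_eq_zero, Finset.filter_eq_empty_iff] at hm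
        have hsub : supp v ⊆ Finset.Iio (⟨4, by omega⟩ : Fin n) := by
          intro i hi
          rw [hmemI]
          have := hm hi
          omega
        have heq : supp v = Finset.Iio (⟨4, by omega⟩ : Fin n) :=
          Finset.eq_of_subset_of_card_le hsub (by rw [hIio, hv])
        apply hbase
        intro i
        rw [← mem_supp, heq, hmemI]
      · -- a support point `i ≥ 4`
        have hpos : 0 < ((supp v).filter (fun i : Fin n => 4 ≤ i.val)).card := by omega
        obtain ⟨i, hi⟩ := Finset.card_pos.1 hpos
        rw [Finset.mem_filter] at hi
        obtain ⟨hiS, hi4⟩ := hi
        have hvi : v i ≠ 0 := (mem_supp v i).1 hiS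
        -- a free point `j < 4`
        obtain ⟨j, hj4, hvj⟩ : ∃ j : Fin n, j.val < 4 ∧ v j = 0 := by
          by_contra hcon
          push Not at hcon
          have hsub : Finset.Iio (⟨4, by omega⟩ : Fin n) ⊂ supp v := by
            rw [Finset.ssubset_iff_of_subset]
            · refine ⟨i, hiS, ?_⟩
              rw [hmemI]
              omega
            · intro a ha
              rw [hmemI] at ha
              exact (mem_supp v a).2 (hcon a ha)
          have := Finset.card_lt_card hsub
          rw [hIio, hv] at this
          omega
        have hij : i ≠ j := by
          rintro rfl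
          omega
        set v' : Fin n → F := Function.update (Function.update v i 0) j (v i) with hv'
        have hv'j : v' j = v i := by rw [hv', Function.update_self]
        have hv'i : v' i = 0 := by
          rw [hv', Function.update_of_ne hij, Function.update_self]
        have hv'o : ∀ a, a ≠ i → a ≠ j → v' a = v a := by
          intro a hai haj
          rw [hv', Function.update_of_ne haj, Function.update_of_ne hai]
        have hsupp : supp v' = insert j ((supp v).erase i) := by
          ext a
          rw [mem_supp, Finset.mem_insert, Finset.mem_erase, mem_supp]
          by_cases haj : a = j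
          · subst haj
            rw [hv'j]
            exact ⟨fun _ => Or.inl rfl, fun _ => hvi⟩
          · by_cases hai : a = i
            · subst hai
              rw [hv'i]
              exact ⟨fun h => absurd rfl h, fun h => by
                rcases h with h | h
                · exact absurd h haj
                · exact absurd rfl h.1⟩
            · rw [hv'o a hai haj]
              exact ⟨fun h => Or.inr ⟨hai, h⟩, fun h => by
                rcases h with h | h
                · exact absurd h haj
                · exact h.2⟩
        have hcard' : (supp v').card = 4 := by
          rw [hsupp, Finset.card_insert_of_notMem, Finset.card_erase_of_mem hiS, hv]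
          rw [Finset.mem_erase, mem_supp]
          exact fun h => h.2 hvj
        have hlt : ((supp v').filter (fun i : Fin n => 4 ≤ i.val)).card < m := by
          have hsub : (supp v').filter (fun i : Fin n => 4 ≤ i.val) ⊆
              ((supp v).filter (fun i : Fin n => 4 ≤ i.val)).erase i := by
            intro a ha
            rw [Finset.mem_filter, mem_supp] at ha
            have haj : a ≠ j := by
              rintro rfl
              omega
            have hai : a ≠ i := by
              rintro rfl
              exact ha.1 hv'i
            rw [Finset.mem_erase, Finset.mem_filter, mem_supp]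
            refine ⟨hai, ?_, ha.2⟩
            rw [← hv'o a hai haj]
            exact ha.1
          have h1 := Finset.card_le_card hsub
          rw [Finset.card_erase_of_mem (Finset.mem_filter.2 ⟨hiS, hi4⟩), hm] at h1
          omega
        have hv'Φ : v' ∈ Φ := ih _ hlt v' hcard' rfl
        have h := hmove v' hv'Φ j i (Ne.symm hij) hv'i 1 one_ne_zero
        have e : Function.update (Function.update v' j 0) i (1 * v' j) = v := by
          funext a
          by_cases hai : a = i
          · subst hai
            rw [Function.update_self, one_mul, hv'j]
          · rw [Function.update_of_ne hai]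
            by_cases haj : a = j
            · subst haj
              rw [Function.update_self, hvj]
            · rw [Function.update_of_ne haj, hv'o a hai haj]
        rwa [e] at h
  exact key _ v hv rfl

end Cfsg.Agent.Helper6
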