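import Mathlib
import Cfsg.Agent.Helper51.TIORD

/-!
# CALL S5976 piece AR3 (helper6)
-/

set_option autoImplicit false

namespace Cfsg.Agent.Helper6

/-- PIECE AR3 -/
theorem c3u_ar3 (r q d i j : ℕ) [Fact r.Prime] (hr2 : 2 < r) (hq : 0 < q)
    (hi : i = orderOf ((q : ℕ) : ZMod r)) (hi0 : 0 < i) (hj1 : 1 ≤ j) (hjd : j ≤ d)
    (h : (Odd j ∧ r ∣ q ^ j - 1) ∨ (Even j ∧ r ∣ q ^ j + 1)) :
    (Odd i ∧ i ≤ d) ∨ (4 ∣ i ∧ i ≤ 2 * d) := by
  rcases h with ⟨hjo, hdvd⟩ | ⟨hje, hdvd⟩
  · left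
    have h1 : i ∣ j := by
      rw [hi]
      exact (Cfsg.Agent.Helper51.TI5955.ord_dvd r q j hq).1 hdvd
    refine ⟨?_, le_trans (Nat.le_of_dvd (by omega) h1) hjd⟩
    rcases Nat.even_or_odd i with hie | hio
    · exfalso
      have : Even j := hie.trans_dvd h1
      exact (Nat.not_even_iff_odd.2 hjo) this
    · exact hio
  · right
    have hpow : 1 ≤ q ^ j := Nat.one_le_pow _ _ hq
    have h1 : r ∣ q ^ (2 * j) - 1 := by
      have h2 : q ^ (2 * j) - 1 = (q ^ j - 1) * (q ^ j + 1) := by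
        obtain ⟨a, ha⟩ : ∃ a, q ^ j = a + 1 := ⟨q ^ j - 1, by omega⟩
        have h3 : q ^ (2 * j) = q ^ j * q ^ j := by rw [two_mul, pow_add]
        rw [h3, ha]
        have h4 : (a + 1) * (a + 1) = a * (a + 1 + 1) + 1 := by ring
        rw [h4]
        simp
      rw [h2]
      exact Dvd.dvd.mul_left hdvd _
    have hdiv : i ∣ 2 * j := by
      rw [hi]
      exact (Cfsg.Agent.Helper51.TI5955.ord_dvd r q (2 * j) hq).1 h1
    have hndiv : ¬ i ∣ j := by
      intro hij
      have h2 : r ∣ q ^ j - 1 := by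
        rw [hi] at hij
        exact (Cfsg.Agent.Helper51.TI5955.ord_dvd r q j hq).2 hij
      have h3 : r ∣ (q ^ j + 1) - (q ^ j - 1) := Nat.dvd_sub hdvd h2
      have h4 : (q ^ j + 1) - (q ^ j - 1) = 2 := by omega
      rw [h4] at h3
      have := Nat.le_of_dvd (by norm_num) h3
      omega
    refine ⟨?_, le_trans (Nat.le_of_dvd (by omega) hdiv) (by omega)⟩
    by_contra h4
    obtain ⟨k, rfl⟩ := hje
    rcases Nat.even_or_odd i with hie | hio
    · obtain ⟨m, rfl⟩ := hie
      have hm : Odd m := by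
        by_contra hm
        rw [Nat.not_odd_iff_even] at hm
        obtain ⟨l, rfl⟩ := hm
        exact h4 ⟨l, by ring⟩
      have h5 : m ∣ 2 * k := by
        have h6 : 2 * m ∣ 2 * (2 * k) := by
          have : 2 * m = m + m := by ring
          rw [this]
          have h7 : 2 * (2 * k) = 2 * (k + k) := by ring
          rw [h7]
          exact hdiv
        exact (Nat.mul_dvd_mul_iff_left (by norm_num)).1 h6
      have h8 : m ∣ k := (Nat.Coprime.dvd_of_dvd_mul_left hm.coprime_two_right h5)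
      apply hndiv
      obtain ⟨c, rfl⟩ := h8
      exact ⟨c, by ring⟩
    · have h5 : i ∣ 4 * k := by
        have h7 : 4 * k = 2 * (k + k) := by ring
        rw [h7]
        exact hdiv
      have hcop : Nat.Coprime i 4 := by
        have : Nat.Coprime i (2 ^ 2) := Nat.Coprime.pow_right 2 hio.coprime_two_right
        simpa using this
      have h8 : i ∣ k := hcop.dvd_of_dvd_mul_left h5
      apply hndiv
      exact dvd_trans h8 ⟨2, by ring⟩

end Cfsg.Agent.Helper6
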