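import Mathlib

/-!
# CALL S5976 piece ARITH (helper6)
-/

set_option autoImplicit false

namespace Cfsg.Agent.Helper6

/-- PIECE ARITH -/
theorem c3u_arith (q d r : ℕ) (hq : 2 ≤ q) (hr : r.Prime) (hrq : ¬ r ∣ q)
    (h : r ∣ (q ^ (d ^ 2) * ∏ i ∈ Finset.range d, (q ^ (2 * (i + 1)) - 1)) /
      (q ^ (d * (d - 1) / 2) *
        ∏ i ∈ Finset.range d, (if Even i then q ^ (i + 1) + 1 else q ^ (i + 1) - 1))) :
    ∃ j, 1 ≤ j ∧ j ≤ d ∧ ((Odd j ∧ r ∣ q ^ j - 1) ∨ (Even j ∧ r ∣ q ^ j + 1)) := by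
  have hq0 : 0 < q := by omega
  have hle : d * (d - 1) / 2 ≤ d ^ 2 := by
    calc d * (d - 1) / 2 ≤ d * (d - 1) := Nat.div_le_self _ _
      _ ≤ d * d := Nat.mul_le_mul_left _ (Nat.sub_le _ _)
      _ = d ^ 2 := by ring
  have hfac : ∀ s : ℕ, q ^ (2 * s) - 1 = (q ^ s - 1) * (q ^ s + 1) := by
    intro s
    have h1 : 1 ≤ q ^ s := Nat.one_le_pow _ _ hq0
    obtain ⟨a, ha⟩ : ∃ a, q ^ s = a + 1 := ⟨q ^ s - 1, by omega⟩
    have h2 : q ^ (2 * s) = q ^ s * q ^ s := by rw [two_mul, pow_add]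
    rw [h2, ha]
    have h3 : (a + 1) * (a + 1) = a * (a + 1 + 1) + 1 := by ring
    rw [h3]
    simp
  have hND : q ^ (d ^ 2) * ∏ i ∈ Finset.range d, (q ^ (2 * (i + 1)) - 1) =
      (q ^ (d * (d - 1) / 2) *
        ∏ i ∈ Finset.range d, (if Even i then q ^ (i + 1) + 1 else q ^ (i + 1) - 1)) *
      (q ^ (d ^ 2 - d * (d - 1) / 2) *
        ∏ i ∈ Finset.range d, (if Even i then q ^ (i + 1) - 1 else q ^ (i + 1) + 1)) := by
    have h1 : q ^ (d ^ 2) = q ^ (d * (d - 1) / 2) * q ^ (d ^ 2 - d * (d - 1) / 2) := by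
      rw [← pow_add]
      congr 1
      omega
    have h2 : ∏ i ∈ Finset.range d, (q ^ (2 * (i + 1)) - 1) =
        (∏ i ∈ Finset.range d, (if Even i then q ^ (i + 1) + 1 else q ^ (i + 1) - 1)) *
        ∏ i ∈ Finset.range d, (if Even i then q ^ (i + 1) - 1 else q ^ (i + 1) + 1) := by
      rw [← Finset.prod_mul_distrib]
      apply Finset.prod_congr rfl
      intro i _
      rw [hfac]
      split_ifs <;> ring
    rw [h1, h2]
    ring
  have hDpos : 0 < q ^ (d * (d - 1) / 2) *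
        ∏ i ∈ Finset.range d, (if Even i then q ^ (i + 1) + 1 else q ^ (i + 1) - 1) := by
    apply Nat.mul_pos (pow_pos hq0 _)
    apply Finset.prod_pos
    intro i _
    split_ifs
    · positivity
    · have h2 : 2 ≤ q ^ (i + 1) := by
        calc 2 ≤ q := hq
          _ = q ^ 1 := (pow_one q).symm
          _ ≤ q ^ (i + 1) := Nat.pow_le_pow_right hq0 (by omega)
      omega
  rw [hND, Nat.mul_div_cancel_left _ hDpos] at h
  rcases (Nat.Prime.dvd_mul hr).1 h with h | h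
  · exact absurd (hr.dvd_of_dvd_pow h) hrq
  · obtain ⟨i, hi, hdvd⟩ := (Prime.dvd_finsetProd_iff hr.prime _).1 h
    rw [Finset.mem_range] at hi
    refine ⟨i + 1, by omega, by omega, ?_⟩
    split_ifs at hdvd with hev
    · left
      exact ⟨hev.add_one, hdvd⟩
    · right
      rw [Nat.not_even_iff_odd] at hev
      exact ⟨hev.add_one, hdvd⟩

end Cfsg.Agent.Helper6
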