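import Mathlib
import Cfsg.Prelude.Def_OddOrder

/-! CALL BG15 (helper25), piece C2 (double): `M' < M` for a maximal subgroup `M`. -/

set_option autoImplicit false
set_option linter.unusedSectionVars false

namespace Cfsg.Agent.Helper6

open Cfsg Subgroup

universe u

variable {G : Type u} [Group G] [Finite G]

/-- C2. `M' < M` (`M` is solvable and `M ≠ 1`). -/
theorem bg15_comm_lt (hG : IsMinSimpleOddOrder G) (M : Subgroup G) (hM : IsCoatom M) :
    ⁅M, M⁆ < M := by
  have hsol : Group.IsSolvable ↥M := hG.2.2.2 M hM.1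
  have hne : M ≠ ⊥ := by
    rintro rfl
    apply hG.2.2.1
    have hsimple := hG.2.1
    obtain ⟨g, hg⟩ := exists_ne (1 : G)
    have h1 : zpowers g = ⊤ :=
      hM.2 (zpowers g) (bot_lt_iff_ne_bot.mpr (by simpa using hg))
    have hcyc : IsCyclic G := ⟨⟨g, fun x => by
      have h2 : x ∈ zpowers g := h1 ▸ mem_top x
      exact h2⟩⟩
    exact IsCyclic.isMulCommutative
  have hnt : Nontrivial ↥M := (Subgroup.nontrivial_iff_ne_bot M).2 hne
  have hlt := Group.IsSolvable.commutator_lt_top_of_nontrivial ↥M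
  have hle : ⁅M, M⁆ ≤ M := Subgroup.commutator_le.2 (fun g₁ h₁ g₂ h₂ =>
    M.mul_mem (M.mul_mem (M.mul_mem h₁ h₂) (M.inv_mem h₁)) (M.inv_mem h₂))
  refine lt_of_le_of_ne hle (fun heq => ?_)
  have h1 : (commutator ↥M).map M.subtype = (⊤ : Subgroup ↥M).map M.subtype := by
    rw [Subgroup.map_subtype_commutator, heq, ← MonoidHom.range_eq_map, Subgroup.range_subtype]
  have h2 := Subgroup.map_injective M.subtype_injective h1
  exact hlt.ne h2

end Cfsg.Agent.Helper6
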