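import Mathlib

/-! CALL S1435 (helper23), piece SYLM (pure group theory). -/

set_option autoImplicit false
set_option linter.unusedSectionVars false

namespace Cfsg.Agent.Helper6

open Subgroup

universe u

variable {G : Type u} [Group G] [Finite G] {M K U Mstar H : Subgroup G}

/-- SYLM (pure). The image in `G` of a Sylow `r`-subgroup of `U`, `r ∣ |U|`. -/
theorem bg65_sylow_map {U : Subgroup G} {r : ℕ} [Fact r.Prime] (hrU : r ∣ Nat.card U)
    (R : Sylow r U) :
    ((R : Subgroup U).map U.subtype) ≤ U ∧ ((R : Subgroup U).map U.subtype) ≠ ⊥ ∧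
      IsPGroup r ((R : Subgroup U).map U.subtype) ∧
      ¬ r ∣ ((R : Subgroup U).map U.subtype).relIndex U := by
  refine ⟨Subgroup.map_subtype_le _, ?_, R.isPGroup'.map U.subtype, ?_⟩
  · intro h
    rw [Subgroup.map_eq_bot_iff_of_injective _ U.subtype_injective] at h
    exact R.ne_bot_of_dvd_card hrU h
  · have h1 : ((R : Subgroup U).map U.subtype).subgroupOf U = (R : Subgroup U) :=
      Subgroup.comap_map_eq_self_of_injective U.subtype_injective _
    show ¬ r ∣ (((R : Subgroup U).map U.subtype).subgroupOf U).index
    rw [h1]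
    exact R.not_dvd_index

end Cfsg.Agent.Helper6
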