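import Mathlib

/-! CALL S1435 (helper23), piece SYLN (pure group theory). -/

set_option autoImplicit false
set_option linter.unusedSectionVars false

namespace Cfsg.Agent.Helper6

open Subgroup

universe u

variable {G : Type u} [Group G] [Finite G] {M K U Mstar H : Subgroup G}

/-- SYLN (pure). A Sylow subgroup of the abelian group `U` is normalized by `N_G(U)`. -/
theorem bg65_syl_norm {U R : Subgroup G} {r : ℕ} (hr : r.Prime) (hUc : IsMulCommutative U)
    (hRU : R ≤ U) (hRr : IsPGroup r R) (hRi : ¬ r ∣ R.relIndex U) :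
    normalizer (U : Set G) ≤ normalizer (R : Set G) := by
  classical
  have : Fact r.Prime := ⟨hr⟩
  -- the Sylow subgroup of `U` given by `R`
  have hR' : IsPGroup r (R.subgroupOf U) := hRr.comap_subtype
  let P : Sylow r U := hR'.toSylow hRi
  have hPn : (P : Subgroup U).Normal := by
    refine ⟨fun n hn g => ?_⟩
    have h1 : g * n * g⁻¹ = n := by
      rw [hUc.is_comm.comm g n, mul_inv_cancel_right]
    rw [h1]
    exact hn
  have huniq := Sylow.unique_of_normal P hPn
  -- characterisation of `R` inside `U`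
  have hchar : ∀ x : G, x ∈ R ↔ x ∈ U ∧ ∃ k : ℕ, x ^ r ^ k = 1 := by
    intro x
    constructor
    · intro hx
      obtain ⟨k, hk⟩ := hRr ⟨x, hx⟩
      refine ⟨hRU hx, k, ?_⟩
      have h2 := congrArg Subtype.val hk
      rw [Subgroup.coe_pow, Subgroup.coe_one] at h2
      exact h2
    · rintro ⟨hxU, k, hk⟩
      have hx' : (⟨x, hxU⟩ : U) ^ r ^ k = 1 := by
        apply Subtype.ext
        rw [Subgroup.coe_pow, Subgroup.coe_one]
        exact hk
      have hord : orderOf (⟨x, hxU⟩ : U) ∣ r ^ k := orderOf_dvd_of_pow_eq_one hx'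
      obtain ⟨m, -, hm⟩ := (Nat.dvd_prime_pow hr).1 hord
      have hzp : IsPGroup r (zpowers (⟨x, hxU⟩ : U)) :=
        IsPGroup.of_card (n := m) (by rw [Nat.card_zpowers, hm])
      obtain ⟨Q, hQ⟩ := hzp.exists_le_sylow
      have hQP : Q = P := Subsingleton.elim _ _
      have h3 : (⟨x, hxU⟩ : U) ∈ (P : Subgroup U) := by
        rw [← hQP]
        exact hQ (mem_zpowers _)
      exact h3
  intro g hg
  rw [mem_normalizer_iff] at hg ⊢
  intro x
  rw [hchar x, hchar (g * x * g⁻¹), ← hg x]
  refine and_congr Iff.rfl (exists_congr fun k => ?_)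
  rw [conj_pow]
  constructor
  · intro h
    rw [h, mul_one, mul_inv_cancel]
  · intro h
    have h2 : x ^ r ^ k = g⁻¹ * (g * x ^ r ^ k * g⁻¹) * g := by group
    rw [h2, h, mul_one, inv_mul_cancel]

end Cfsg.Agent.Helper6
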