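import Mathlib
import Cfsg.Prelude.Def_GeometricClasses
import Cfsg.Prelude.Def_ClassicalGeometry
import Cfsg.Prelude.Def_LieClassical
import Cfsg.Agent.Helper94.SpLag2

/-!
# CALL S5976 piece R2 (helper6)

A symplectic `x` with `x² = -1`, where `-1 = ι²` is a square, anticommutes with a skew-adjoint
square root of `n`: the eigenspaces `ker (x - ι)` and `ker (x + ι)` are complementary totally
isotropic subspaces, and `J'` swaps dual bases of them.
-/

set_option autoImplicit false

namespace Cfsg.Agent.Helper6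

open Matrix Module Cfsg Cfsg.Agent.Helper94

/-- PIECE R2: `x² = -1` with `-1` a square -/
theorem c3u_r2 {F : Type*} [Field F] (h2 : (2 : F) ≠ 0) (d : ℕ) (n ι : F) (hι : ι * ι = -1)
    (x : GL (Fin d ⊕ Fin d) F) (hx : x ∈ Cfsg.spGL d F)
    (hx2 : ((x ^ 2 : GL (Fin d ⊕ Fin d) F) : Matrix (Fin d ⊕ Fin d) (Fin d ⊕ Fin d) F) =
      (-1 : F) • 1) :
    ∃ J' : Matrix (Fin d ⊕ Fin d) (Fin d ⊕ Fin d) F,
      J' * J' = n • (1 : Matrix (Fin d ⊕ Fin d) (Fin d ⊕ Fin d) F) ∧
      (∀ u v, Cfsg.sympForm d F (J' *ᵥ u) v = - Cfsg.sympForm d F u (J' *ᵥ v)) ∧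
      (x : Matrix (Fin d ⊕ Fin d) (Fin d ⊕ Fin d) F) * J' =
        (-1 : F) • (J' * (x : Matrix (Fin d ⊕ Fin d) (Fin d ⊕ Fin d) F)) := by
  classical
  obtain ⟨X, hX⟩ : ∃ X : Matrix (Fin d ⊕ Fin d) (Fin d ⊕ Fin d) F,
      X = (x : Matrix (Fin d ⊕ Fin d) (Fin d ⊕ Fin d) F) := ⟨_, rfl⟩
  have hXX : ∀ v, X *ᵥ (X *ᵥ v) = -v := by
    intro v
    rw [Matrix.mulVec_mulVec, hX]
    have h1 : (x : Matrix (Fin d ⊕ Fin d) (Fin d ⊕ Fin d) F) *
        (x : Matrix (Fin d ⊕ Fin d) (Fin d ⊕ Fin d) F) = (-1 : F) • 1 := by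
      rw [← hx2, pow_two]
      rfl
    rw [h1, Matrix.smul_mulVec, Matrix.one_mulVec, neg_one_smul]
  have hsp : ∀ u v, sympForm d F (X *ᵥ u) (X *ᵥ v) = sympForm d F u v := by
    intro u v
    rw [hX]
    exact hx u v
  have hι0 : ι ≠ 0 := by
    rintro rfl
    simp at hι
  let U : Submodule F (Fin d ⊕ Fin d → F) :=
    { carrier := {v | X *ᵥ v = ι • v}
      add_mem' := by
        intro a b ha hb
        simp only [Set.mem_ofPred_eq] at *
        rw [Matrix.mulVec_add, ha, hb, smul_add]
      zero_mem' := by simp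
      smul_mem' := by
        intro c a ha
        simp only [Set.mem_ofPred_eq] at *
        rw [Matrix.mulVec_smul, ha, smul_comm] }
  let W : Submodule F (Fin d ⊕ Fin d → F) :=
    { carrier := {v | X *ᵥ v = (-ι) • v}
      add_mem' := by
        intro a b ha hb
        simp only [Set.mem_ofPred_eq] at *
        rw [Matrix.mulVec_add, ha, hb, smul_add]
      zero_mem' := by simp
      smul_mem' := by
        intro c a ha
        simp only [Set.mem_ofPred_eq] at *
        rw [Matrix.mulVec_smul, ha, smul_comm] }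
  have hUmem : ∀ v, v ∈ U ↔ X *ᵥ v = ι • v := fun v => Iff.rfl
  have hWmem : ∀ v, v ∈ W ↔ X *ᵥ v = (-ι) • v := fun v => Iff.rfl
  have h : LagPair U W := by
    refine ⟨?_, ?_, ?_, ?_⟩
    · intro a ha b hb
      rw [hUmem] at ha hb
      have h1 := hsp a b
      rw [ha, hb, sf_smul_left, sf_smul_right] at h1
      have h3 : (2 : F) * sympForm d F a b = 0 := by
        linear_combination (-1 : F) * h1 + (sympForm d F a b) * hι
      exact (mul_eq_zero.1 h3).resolve_left h2
    · intro a ha b hb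
      rw [hWmem] at ha hb
      have h1 := hsp a b
      rw [ha, hb, sf_smul_left, sf_smul_right] at h1
      have h3 : (2 : F) * sympForm d F a b = 0 := by
        linear_combination (-1 : F) * h1 + (sympForm d F a b) * hι
      exact (mul_eq_zero.1 h3).resolve_left h2
    · intro v hU' hW'
      rw [hUmem] at hU'
      rw [hWmem] at hW'
      have h3 : (2 * ι) • v = 0 := by
        have h5 : ι • v = (-ι) • v := hU'.symm.trans hW'
        have h4 : (2 * ι) • v = ι • v - (-ι) • v := by
          rw [← sub_smul]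
          congr 1
          ring
        rw [h4, h5, sub_self]
      exact (smul_eq_zero.1 h3).resolve_left (mul_ne_zero h2 hι0)
    · intro v
      refine ⟨(2 : F)⁻¹ • (v - ι • (X *ᵥ v)), ?_, (2 : F)⁻¹ • (v + ι • (X *ᵥ v)), ?_, ?_⟩
      · rw [hUmem, Matrix.mulVec_smul, Matrix.mulVec_sub, Matrix.mulVec_smul, hXX]
        have e1 : ι • (2 : F)⁻¹ • (v - ι • X *ᵥ v) =
            (2 : F)⁻¹ • (ι • v - (ι * ι) • X *ᵥ v) := by module
        rw [e1, hι]
        module
      · rw [hWmem, Matrix.mulVec_smul, Matrix.mulVec_add, Matrix.mulVec_smul, hXX]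
        have e2 : (-ι) • (2 : F)⁻¹ • (v + ι • X *ᵥ v) =
            (2 : F)⁻¹ • ((-ι) • v - (ι * ι) • X *ᵥ v) := by module
        rw [e2, hι]
        module
      · rw [← smul_add]
        have h7 : v - ι • X *ᵥ v + (v + ι • X *ᵥ v) = (2 : F) • v := by
          rw [two_smul]
          abel
        rw [h7, smul_smul, inv_mul_cancel₀ h2, one_smul]
  -- dual bases (as in `Helper94.lag_swap`)
  have hU := h.finrank_eq
  have hW := h.symm.finrank_eq
  obtain ⟨eb⟩ : Nonempty (Module.Basis (Fin d) F U) := ⟨Module.finBasisOfFinrankEq F U hU⟩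
  obtain ⟨e, he⟩ : ∃ e : Fin d → Fin d ⊕ Fin d → F, ∀ i, e i = (eb i : Fin d ⊕ Fin d → F) :=
    ⟨_, fun i => rfl⟩
  have heU : ∀ i, e i ∈ U := fun i => by rw [he]; exact (eb i).2
  have hrepr : ∀ u ∈ U, ∃ c : Fin d → F, u = ∑ i, c i • e i := by
    intro u hu
    refine ⟨fun i => eb.repr ⟨u, hu⟩ i, ?_⟩
    have := congrArg Subtype.val (eb.sum_repr ⟨u, hu⟩)
    simp only [Submodule.coe_sum, Submodule.coe_smul] at this
    exact this.symm.trans (Finset.sum_congr rfl (fun i _ => by rw [he]))
  obtain ⟨Φ, hΦ⟩ : ∃ Φ : W →ₗ[F] (Fin d → F),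
      ∀ (w : W) i, Φ w i = sympForm d F (e i) (w : Fin d ⊕ Fin d → F) :=
    ⟨LinearMap.pi (fun i => (Helper13.sympB d F (e i)).comp W.subtype), fun w i => rfl⟩
  have hinj : Function.Injective Φ := by
    rw [injective_iff_map_eq_zero]
    intro w hw
    have h1 : ∀ u ∈ U, sympForm d F u (w : Fin d ⊕ Fin d → F) = 0 := by
      intro u hu
      obtain ⟨c, rfl⟩ := hrepr u hu
      rw [sf_sum_left]
      apply Finset.sum_eq_zero
      intro i _
      rw [sf_smul_left, ← hΦ, hw]
      simp
    exact Subtype.ext (h.disj _ (h.perp_mem _ h1) w.2)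
  have hsurj : Function.Surjective Φ :=
    (LinearMap.injective_iff_surjective_of_finrank_eq_finrank
      (by rw [hW, Module.finrank_fin_fun])).mp hinj
  choose fw hfw using fun j : Fin d => hsurj (Pi.single j 1)
  obtain ⟨f, hf⟩ : ∃ f : Fin d → Fin d ⊕ Fin d → F, ∀ i, f i = (fw i : Fin d ⊕ Fin d → F) :=
    ⟨_, fun i => rfl⟩
  have hfW : ∀ i, f i ∈ W := fun i => by rw [hf]; exact (fw i).2
  have hef : ∀ i j, sympForm d F (e i) (f j) = if i = j then 1 else 0 := by
    intro i j
    rw [hf, ← hΦ, hfw, Pi.single_apply]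
  have hfe : ∀ i j, sympForm d F (f i) (e j) = if i = j then -1 else 0 := by
    intro i j
    rw [sf_swap, hef j i]
    by_cases hij : i = j
    · simp [hij]
    · simp [hij, Ne.symm hij]
  have hee : ∀ i j, sympForm d F (e i) (e j) = 0 := fun i j => h.isoA _ (heU i) _ (heU j)
  have hff : ∀ i j, sympForm d F (f i) (f j) = 0 := fun i j => h.isoB _ (hfW i) _ (hfW j)
  have hR1 : ∀ u ∈ U, (∀ j, sympForm d F u (f j) = 0) → u = 0 := by
    intro u hu hz
    obtain ⟨c, rfl⟩ := hrepr u hu
    have hc : ∀ j, c j = 0 := by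
      intro j
      have := hz j
      rw [sf_sum_left] at this
      simpa [sf_smul_left, hef] using this
    apply Finset.sum_eq_zero
    intro i _
    rw [hc i, zero_smul]
  have hR3 : ∀ y : Fin d ⊕ Fin d → F,
      y = ∑ j, (sympForm d F y (f j) • e j - sympForm d F y (e j) • f j) := by
    intro y
    obtain ⟨z, hz⟩ : ∃ z, z = y - ∑ j, (sympForm d F y (f j) • e j - sympForm d F y (e j) • f j) :=
      ⟨_, rfl⟩
    have hze : ∀ k, sympForm d F z (e k) = 0 := by
      intro k
      rw [hz, sf_sub_left, sf_sum_left]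
      simp [sf_sub_left, sf_smul_left, hee, hfe]
    have hzf : ∀ k, sympForm d F z (f k) = 0 := by
      intro k
      rw [hz, sf_sub_left, sf_sum_left]
      simp [sf_sub_left, sf_smul_left, hff, hef]
    have hzU : z ∈ U := by
      apply h.perp_mem
      intro a ha
      obtain ⟨c, rfl⟩ := hrepr a ha
      rw [sf_sum_left]
      apply Finset.sum_eq_zero
      intro i _
      rw [sf_smul_left, sf_swap, hze i, neg_zero, mul_zero]
    have hz0 := hR1 z hzU hzf
    rw [hz0] at hz
    exact (sub_eq_zero.mp hz.symm)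
  -- the map `J'`
  obtain ⟨S, hS⟩ : ∃ S : (Fin d ⊕ Fin d → F) →ₗ[F] (Fin d ⊕ Fin d → F),
      ∀ v, S v = ∑ r, (sympForm d F v (f r) • f r - n • (sympForm d F v (e r) • e r)) := by
    refine ⟨∑ r, (((Helper13.sympB d F).flip (f r)).smulRight (f r) -
      n • ((Helper13.sympB d F).flip (e r)).smulRight (e r)), fun v => ?_⟩
    simp [LinearMap.sum_apply, Helper13.sympB_apply]
  have k1 : ∀ v k, sympForm d F (S v) (e k) = - sympForm d F v (f k) := by
    intro v k
    rw [hS, sf_sum_left]
    simp [sf_sub_left, sf_smul_left, hee, hfe]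
  have k2 : ∀ v k, sympForm d F (S v) (f k) = - (n * sympForm d F v (e k)) := by
    intro v k
    rw [hS, sf_sum_left]
    simp [sf_sub_left, sf_smul_left, hff, hef]
  have hSS : ∀ v, S (S v) = n • v := by
    intro v
    rw [hS (S v)]
    simp only [k1, k2]
    conv_rhs => rw [hR3 v]
    rw [Finset.smul_sum]
    apply Finset.sum_congr rfl
    intro r _
    module
  have hskew : ∀ u v, sympForm d F (S u) v = - sympForm d F u (S v) := by
    intro u v
    rw [hS u, hS v, sf_sum_left, sf_sum_right, ← Finset.sum_neg_distrib]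
    apply Finset.sum_congr rfl
    intro r _
    rw [sf_sub_left, sf_sub_right, sf_smul_left, sf_smul_left, sf_smul_left, sf_smul_right,
      sf_smul_right, sf_smul_right, sf_swap (f r) v, sf_swap (e r) v]
    ring
  have hanti : ∀ v, X *ᵥ (S v) = (-1 : F) • S (X *ᵥ v) := by
    intro v
    have hXlin : ∀ w, X *ᵥ w = Matrix.toLin' X w := fun w => (Matrix.toLin'_apply X w).symm
    rw [hS v, hS (X *ᵥ v), hXlin, map_sum, Finset.smul_sum]
    apply Finset.sum_congr rfl
    intro r _
    rw [← hXlin]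
    have he' : X *ᵥ e r = ι • e r := heU r
    have hf' : X *ᵥ f r = (-ι) • f r := hfW r
    have h1 : sympForm d F (X *ᵥ v) (f r) = ι * sympForm d F v (f r) := by
      have h3 : X *ᵥ (ι • f r) = f r := by
        rw [Matrix.mulVec_smul, hf', smul_smul]
        have h4 : ι * -ι = 1 := by linear_combination (-1 : F) * hι
        rw [h4, one_smul]
      calc sympForm d F (X *ᵥ v) (f r) = sympForm d F (X *ᵥ v) (X *ᵥ (ι • f r)) := by rw [h3]
        _ = sympForm d F v (ι • f r) := hsp _ _
        _ = ι * sympForm d F v (f r) := sf_smul_right _ _ _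
    have h1' : sympForm d F (X *ᵥ v) (e r) = -ι * sympForm d F v (e r) := by
      have h3 : X *ᵥ ((-ι) • e r) = e r := by
        rw [Matrix.mulVec_smul, he', smul_smul]
        have h4 : -ι * ι = 1 := by linear_combination (-1 : F) * hι
        rw [h4, one_smul]
      calc sympForm d F (X *ᵥ v) (e r) = sympForm d F (X *ᵥ v) (X *ᵥ ((-ι) • e r)) := by rw [h3]
        _ = sympForm d F v ((-ι) • e r) := hsp _ _
        _ = -ι * sympForm d F v (e r) := sf_smul_right _ _ _
    rw [Matrix.mulVec_sub, Matrix.mulVec_smul, Matrix.mulVec_smul, Matrix.mulVec_smul, he', hf',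
      h1, h1']
    module
  refine ⟨LinearMap.toMatrix' S, ?_, ?_, ?_⟩
  · rw [← LinearMap.toMatrix'_comp]
    have h1 : S.comp S = n • LinearMap.id := by
      apply LinearMap.ext
      intro v
      simp only [LinearMap.comp_apply, LinearMap.smul_apply, LinearMap.id_apply]
      exact hSS v
    rw [h1, map_smul, LinearMap.toMatrix'_id]
  · intro u v
    rw [LinearMap.toMatrix'_mulVec, LinearMap.toMatrix'_mulVec]
    exact hskew u v
  · have hlin : (Matrix.toLin' X).comp S = (-1 : F) • S.comp (Matrix.toLin' X) := by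
      apply LinearMap.ext
      intro v
      simp only [LinearMap.comp_apply, LinearMap.smul_apply, Matrix.toLin'_apply]
      exact hanti v
    have h3 := congrArg LinearMap.toMatrix' hlin
    rw [LinearMap.toMatrix'_comp, map_smul, LinearMap.toMatrix'_comp,
      LinearMap.toMatrix'_toLin'] at h3
    rw [← hX]
    exact h3

end Cfsg.Agent.Helper6
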