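import Mathlib
import Cfsg.Prelude.Def_GeometricClasses
import Cfsg.Prelude.Def_Classical
import Cfsg.Agent.Helper43.S88OEDefs

set_option autoImplicit false

/-!
# Sub-CALL S88OE (helper43), piece BLKRESTR (double by helper6): `oe_blk_restr`
-/

namespace Cfsg.Agent.Helper6.S88OE

open Module Polynomial Cfsg Cfsg.Geo
open Cfsg.Agent.Helper43 Cfsg.Agent.Helper43.OrthEven Cfsg.Agent.Helper43.S88OE

section lin

variable {F : Type*} [Field F] {Va Vb : Type*} [AddCommGroup Va] [Module F Va] [AddCommGroup Vb]
  [Module F Vb]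

/-- evaluation of a polynomial at a restricted endomorphism -/
theorem aeval_restrict6 (T : Module.End F Va) (U : Submodule F Va) (h : ∀ u ∈ U, T u ∈ U)
    (f : F[X]) : ∀ u : U, ((aeval (T.restrict h) f u : U) : Va) = aeval T f (u : Va) := by
  induction f using Polynomial.induction_on with
  | C a =>
    intro u
    simp only [aeval_C, Module.algebraMap_end_apply]
    rfl
  | add p q hp hq =>
    intro u
    rw [map_add, map_add, LinearMap.add_apply, LinearMap.add_apply, Submodule.coe_add, hp u, hq u]
  | monomial n a ih =>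
    intro u
    have e1 : aeval (T.restrict h) (C a * X ^ (n + 1))
        = aeval (T.restrict h) (C a * X ^ n) * T.restrict h := by
      rw [pow_succ, ← mul_assoc, map_mul, aeval_X]
    have e2 : aeval T (C a * X ^ (n + 1)) = aeval T (C a * X ^ n) * T := by
      rw [pow_succ, ← mul_assoc, map_mul, aeval_X]
    rw [e1, e2, Module.End.mul_apply, Module.End.mul_apply, ih (T.restrict h u)]
    rfl

/-- BLKRESTR [S, generic]: the restriction of a block to an invariant nondegenerate subspace is a
block.  (`T' := T.restrict (fun u hu => hU ⟨u, hu, rfl⟩)`; `U.subtype (aeval T' f u) =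
aeval T f u` by `Polynomial.induction_on`, then `Subtype.ext`.) -/
theorem oe_blk_restr (r : ℕ) (Qa : QuadraticForm F Va) (T : Module.End F Va)
    (hT : ∀ v, Qa (T v) = Qa v) (hcyc : aeval T (cyclotomic r F) = 0) (U : Submodule F Va)
    (hU : U.map T ≤ U) (hnd : PolarNondeg (Qa.comp U.subtype)) :
    ∃ T' : Module.End F U, Blk r (Qa.comp U.subtype) T' := by
  have h : ∀ u ∈ U, T u ∈ U := fun u hu => hU ⟨u, hu, rfl⟩
  refine ⟨T.restrict h, hnd, ?_, ?_⟩
  · intro v
    rw [QuadraticMap.comp_apply, QuadraticMap.comp_apply]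
    exact hT v
  · apply LinearMap.ext
    intro u
    apply Subtype.ext
    rw [aeval_restrict6 T U h, hcyc]
    rfl

end lin

end Cfsg.Agent.Helper6.S88OE
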