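import Mathlib
import Cfsg.Agent.Helper71.SQMain
import Cfsg.Agent.Helper71.SGDefs

/-!
# CALL S5666, piece KF2 (helper6): `sp_fix_hyp`
-/

set_option autoImplicit false
set_option linter.unusedVariables false

namespace Cfsg.Agent.Helper6.SGKF2

open Matrix Cfsg.Agent.Helper71.T4 Cfsg.Agent.Helper71.SO Cfsg.Agent.Helper71.SQ
open Cfsg.Agent.Helper71.SG
open scoped Kronecker
open Cfsg.Agent.Helper11.SORT Cfsg.Agent.Helper53.SQET Cfsg.Agent.Helper53.SQTA

variable {F : Type*} [Field F] {m n : ℕ}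

/-! ## Piece KF2 -/
theorem sp_fix_hyp (hn : 0 < n) (h2 : (2 : F) ≠ 0) (J : Matrix (Fin m) (Fin m) F)
    (hJ : Jᵀ = -J) (hdetJ : J.det ≠ 0) (S : Matrix (Fin n) (Fin n) F) (hdetS : S.det ≠ 0)
    (b : Fin m → F) (hb : b ≠ 0) (A : Matrix (Fin m) (Fin m) F)
    (hsp : IsSpG J S (A ⊗ₖ (1 : Matrix (Fin n) (Fin n) F)))
    (hfix : ∀ d : Fin m → F, bl J d b = 0 → A *ᵥ d = d) :
    ∃ c : F, A = Tac J b c := by
  -- step 1: `Aᵀ J A = J`
  have hS0 : ∃ j j', S j j' ≠ 0 := by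
    by_contra hcon
    push Not at hcon
    apply hdetS
    have hS : S = 0 := by
      ext j j'
      exact hcon j j'
    have hne : Nonempty (Fin n) := ⟨⟨0, hn⟩⟩
    rw [hS]
    exact Matrix.det_zero
  obtain ⟨j, j', hjj'⟩ := hS0
  have hA : Aᵀ * J * A = J := by
    have h := hsp
    unfold IsSpG OmG at h
    have hk : (A ⊗ₖ (1 : Matrix (Fin n) (Fin n) F))ᵀ * (J ⊗ₖ S)
        * (A ⊗ₖ (1 : Matrix (Fin n) (Fin n) F)) = (Aᵀ * J * A) ⊗ₖ S := by
      have e1 : (A ⊗ₖ (1 : Matrix (Fin n) (Fin n) F))ᵀ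
          = Aᵀ ⊗ₖ (1 : Matrix (Fin n) (Fin n) F) := by
        rw [← Matrix.kroneckerMap_transpose, Matrix.transpose_one]
      rw [e1, ← Matrix.mul_kronecker_mul, ← Matrix.mul_kronecker_mul, Matrix.one_mul,
        Matrix.mul_one]
    rw [hk] at h
    ext i i'
    have h' := congrFun (congrFun h (i, j)) (i', j')
    simp only [Matrix.kroneckerMap_apply] at h'
    exact mul_right_cancel₀ hjj' h'
  have hbl : ∀ x y, bl J (A *ᵥ x) (A *ᵥ y) = bl J x y := fun x y => by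
    rw [← bl_conj, hA]
  obtain ⟨b₁, hb₁⟩ := alt_partner J hdetJ b hb
  have key : ∃ l : F, A *ᵥ b₁ - b₁ = l • b := by
    by_contra hcon
    push Not at hcon
    obtain ⟨w, hw1, hw2⟩ := ta_sep J hdetJ b (A *ᵥ b₁ - b₁) hb hcon
    apply hw2
    have hwb : bl J w b = 0 := by rw [et_bl_skew J hJ, hw1, neg_zero]
    rw [bl_sub_left]
    have h3 := hbl b₁ w
    rw [hfix w hwb] at h3
    rw [h3, sub_self]
  obtain ⟨l, hl⟩ := key
  refine ⟨-l, ?_⟩
  apply mv_ext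
  intro x
  rw [tac_mulVec]
  have hd : bl J (x - bl J b x • b₁) b = 0 := by
    rw [bl_sub_left, bl_smul_left, et_bl_skew J hJ b₁ b, hb₁, et_bl_skew J hJ x b]
    ring
  have h1 := hfix _ hd
  rw [Matrix.mulVec_sub, Matrix.mulVec_smul] at h1
  have hxb : bl J x b = - bl J b x := et_bl_skew J hJ x b
  rw [hxb]
  ext i
  have h1i := congrFun h1 i
  have hli := congrFun hl i
  simp only [Pi.sub_apply, Pi.smul_apply, smul_eq_mul, Pi.add_apply] at h1i hli ⊢
  linear_combination h1i + bl J b x * hli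

end Cfsg.Agent.Helper6.SGKF2
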