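import Mathlib
import Cfsg.Agent.Helper71.SQMain
import Cfsg.Agent.Helper71.SGDefs

/-!
# CALL S5666, piece SUR (helper6): `fix_surj`
-/

set_option autoImplicit false
set_option linter.unusedVariables false

namespace Cfsg.Agent.Helper6.SGSUR

open Matrix Cfsg.Agent.Helper71.T4 Cfsg.Agent.Helper71.SO Cfsg.Agent.Helper71.SQ
open Cfsg.Agent.Helper71.SG
open scoped Kronecker

variable {F : Type*} [Field F] {m n : ℕ}

/-- The functional part `f_a` of `t_a(c) ⊗ 1 - 1`. -/
def fa (J : Matrix (Fin m) (Fin m) F) (a : Fin m → F) :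
    (Fin m × Fin n → F) →ₗ[F] (Fin n → F) where
  toFun w := fun j => ∑ i, (J *ᵥ a) i * w (i, j)
  map_add' x y := by
    ext j
    simp only [Pi.add_apply, mul_add, Finset.sum_add_distrib]
  map_smul' c x := by
    ext j
    simp only [Pi.smul_apply, smul_eq_mul, RingHom.id_apply, Finset.mul_sum]
    refine Finset.sum_congr rfl fun i _ => ?_
    ring

theorem fa_apply (J : Matrix (Fin m) (Fin m) F) (a : Fin m → F) (w : Fin m × Fin n → F)
    (j : Fin n) : fa J a w j = ∑ i, (J *ᵥ a) i * w (i, j) := rfl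

theorem vmvK_mulVec (a v : Fin m → F) (w : Fin m × Fin n → F) :
    (vecMulVec a v ⊗ₖ (1 : Matrix (Fin n) (Fin n) F)) *ᵥ w
      = pt a (fun j => ∑ i, v i * w (i, j)) := by
  ext ⟨i, j⟩
  simp only [Matrix.mulVec, dotProduct, Fintype.sum_prod_type, Matrix.kroneckerMap_apply,
    Matrix.one_apply, vecMulVec_apply, pt, mul_ite, mul_one, mul_zero, ite_mul, zero_mul,
    Finset.sum_ite_eq, Finset.mem_univ, if_true, Finset.mul_sum]
  refine Finset.sum_congr rfl fun i' _ => ?_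
  ring

theorem tacK_mulVec (J : Matrix (Fin m) (Fin m) F) (a : Fin m → F) (c : F)
    (w : Fin m × Fin n → F) :
    (Tac J a c ⊗ₖ (1 : Matrix (Fin n) (Fin n) F)) *ᵥ w = w + c • pt a (fa J a w) := by
  unfold Tac
  rw [Matrix.add_kronecker, Matrix.smul_kronecker, Matrix.one_kronecker_one, Matrix.add_mulVec,
    Matrix.one_mulVec, Matrix.smul_mulVec, vmvK_mulVec]
  rfl

theorem pt_eq_zero_iff (a : Fin m → F) (ha : a ≠ 0) (x : Fin n → F) : pt a x = 0 ↔ x = 0 := by
  constructor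
  · intro h
    obtain ⟨i, hi⟩ : ∃ i, a i ≠ 0 := by
      by_contra hcon
      push Not at hcon
      exact ha (funext hcon)
    ext j
    have := congrFun h (i, j)
    simp only [pt, Pi.zero_apply] at this
    rcases mul_eq_zero.1 this with h' | h'
    · exact absurd h' hi
    · simpa using h'
  · rintro rfl
    ext ⟨i, j⟩
    simp [pt]

theorem tacK_fix_iff (J : Matrix (Fin m) (Fin m) F) (a : Fin m → F) (ha : a ≠ 0)
    (w : Fin m × Fin n → F) :
    (Tac J a 1 ⊗ₖ (1 : Matrix (Fin n) (Fin n) F)) *ᵥ w = w ↔ fa J a w = 0 := by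
  rw [tacK_mulVec, one_smul]
  constructor
  · intro h
    have h' : pt a (fa J a w) = 0 := by
      have := h
      rwa [add_eq_left] at this
    exact (pt_eq_zero_iff a ha _).1 h'
  · intro h
    rw [h, (pt_eq_zero_iff a ha 0).2 rfl, add_zero]

/-- `z ↦ pt d z` as a linear map. -/
def ptL (d : Fin m → F) : (Fin n → F) →ₗ[F] (Fin m × Fin n → F) where
  toFun z := pt d z
  map_add' x y := by
    ext ⟨i, j⟩
    simp only [pt, Pi.add_apply, mul_add]
  map_smul' c x := by
    ext ⟨i, j⟩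
    simp only [pt, Pi.smul_apply, smul_eq_mul, RingHom.id_apply]
    ring

/-! ## Piece SUR -/
theorem fix_surj (h2 : (2 : F) ≠ 0) (J : Matrix (Fin m) (Fin m) F) (hJ : Jᵀ = -J)
    (a : Fin m → F) (ha : a ≠ 0) (g : Matrix (Fin m × Fin n) (Fin m × Fin n) F)
    (d : Fin m → F)
    (h5 : ∀ z : Fin n → F,
      (Tac J a 1 ⊗ₖ (1 : Matrix (Fin n) (Fin n) F)) *ᵥ (g *ᵥ pt d z) = g *ᵥ pt d z → z = 0)
    (v : Fin m × Fin n → F) :
    ∃ z' : Fin n → F, (Tac J a 1 ⊗ₖ (1 : Matrix (Fin n) (Fin n) F)) *ᵥ (g *ᵥ (v + pt d z'))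
      = g *ᵥ (v + pt d z') := by
  let φ : (Fin n → F) →ₗ[F] (Fin n → F) :=
    (fa J a).comp ((Matrix.mulVecLin g).comp (ptL d))
  have hφ : ∀ z, φ z = fa J a (g *ᵥ pt d z) := fun z => rfl
  have hinj : Function.Injective φ := by
    rw [← LinearMap.ker_eq_bot, LinearMap.ker_eq_bot']
    intro z hz
    apply h5 z
    rw [tacK_fix_iff J a ha]
    rw [← hφ]; exact hz
  have hsurj : Function.Surjective φ := LinearMap.injective_iff_surjective.1 hinj
  obtain ⟨z', hz'⟩ := hsurj (- fa J a (g *ᵥ v))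
  refine ⟨z', ?_⟩
  rw [tacK_fix_iff J a ha, Matrix.mulVec_add, map_add, ← hφ, hz', add_neg_cancel]

end Cfsg.Agent.Helper6.SGSUR
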