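import Mathlib
import Cfsg.Prelude.Def_Classical
import Cfsg.Prelude.Def_Characters
import Cfsg.Agent.S0299
import Cfsg.Agent.S2544
import Cfsg.Agent.Helper79.Quotient

/-! CALL S2548 (helper45), piece PLUS22: the Steinberg-type character of `PΩ⁺₄(2)`
(a group of order 18). -/

set_option autoImplicit false

namespace Cfsg.Agent.Helper6.StPLUS22

open Cfsg

/-- A Sylow `2`-subgroup of a group of order `≡ 2 mod 4` has order 2. -/
theorem card_sylow2 {X : Type*} [Group X] [Finite X] (h2 : 2 ∣ Nat.card X)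
    (h4 : ¬ 4 ∣ Nat.card X) (P : Sylow 2 X) : Nat.card P = 2 := by
  have : Fact (Nat.Prime 2) := ⟨Nat.prime_two⟩
  have h := Sylow.card_eq_multiplicity P
  have hpos : 0 < (Nat.card X).factorization 2 :=
    Nat.Prime.factorization_pos_of_dvd Nat.prime_two Nat.card_pos.ne' h2
  have hlt : (Nat.card X).factorization 2 < 2 := by
    by_contra hcon
    push Not at hcon
    apply h4
    have : 2 ^ 2 ∣ Nat.card X := (pow_dvd_pow 2 hcon).trans (Nat.ordProj_dvd _ _)
    simpa using this
  have h1 : (Nat.card X).factorization 2 = 1 := by omega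
  rw [h, h1, pow_one]

/-- Pull back a Steinberg-type character for the prime 2 along a surjection, when the source
has order not divisible by 4. -/
theorem st_pull2 {G T : Type*} [Group G] [Group T] [Finite G] (g : G →* T)
    (hg : Function.Surjective g) (h4 : ¬ 4 ∣ Nat.card G) (h2 : 2 ∣ Nat.card T)
    (h : ∃ χ : T → ℂ, Cfsg.IsIrrCharacter T χ ∧ ∀ P : Sylow 2 T, χ 1 = Nat.card P ∧
      ∀ x : T, x ∈ P → x ≠ 1 → χ x = 0) :
    ∃ χ : G → ℂ, Cfsg.IsIrrCharacter G χ ∧ ∀ P : Sylow 2 G, χ 1 = Nat.card P ∧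
      ∀ x : G, x ∈ P → x ≠ 1 → χ x = 0 := by
  classical
  have : Fact (Nat.Prime 2) := ⟨Nat.prime_two⟩
  have : Finite T := Finite.of_surjective g hg
  obtain ⟨χ, hirr, hχ⟩ := h
  have hdvd : Nat.card T ∣ Nat.card G := Subgroup.card_dvd_of_surjective g hg
  have h2G : 2 ∣ Nat.card G := h2.trans hdvd
  have h4T : ¬ 4 ∣ Nat.card T := fun h => h4 (h.trans hdvd)
  refine ⟨fun x => χ (g x), Cfsg.Agent.Helper79.isIrrCharacter_comp g hg hirr, ?_⟩
  intro P
  have hP : Nat.card P = 2 := card_sylow2 h2G h4 P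
  obtain ⟨Q⟩ : Nonempty (Sylow 2 T) := inferInstance
  refine ⟨?_, ?_⟩
  · show χ (g 1) = _
    rw [map_one, (hχ Q).1, card_sylow2 h2 h4T Q, hP]
  · intro x hx hx1
    show χ (g x) = 0
    have hgx : g x ≠ 1 := by
      intro hgx
      have hker : Nat.card G = Nat.card T * Nat.card g.ker := by
        have := Subgroup.card_eq_card_quotient_mul_card_subgroup g.ker
        rw [Nat.card_congr (QuotientGroup.quotientKerEquivOfSurjective g hg).toEquiv] at this
        exact this
      have hord : orderOf x ∣ Nat.card g.ker := by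
        have := orderOf_dvd_natCard (⟨x, MonoidHom.mem_ker.2 hgx⟩ : g.ker)
        rwa [← Subgroup.orderOf_coe] at this
      have hord2 : orderOf x ∣ 2 := by
        have := orderOf_dvd_natCard (⟨x, hx⟩ : (P : Subgroup G))
        rwa [← Subgroup.orderOf_coe, hP] at this
      have hx2 : orderOf x = 2 := by
        rcases (Nat.dvd_prime Nat.prime_two).1 hord2 with h | h
        · exact absurd (orderOf_eq_one_iff.1 h) hx1
        · exact h
      apply h4
      rw [hker]
      obtain ⟨c, hc⟩ := h2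
      rw [hx2] at hord
      obtain ⟨d, hd⟩ := hord
      exact ⟨c * d, by rw [hc, hd]; ring⟩
    obtain ⟨Q', hQ'⟩ := IsPGroup.exists_le_sylow (P.isPGroup'.map g)
    exact (hχ Q').2 (g x) (hQ' (Subgroup.mem_map_of_mem g hx)) hgx

/-- The "equal parity" subgroup of `S × S` for a subgroup `A` of index two. -/
def K2 {S : Type*} [Group S] (A : Subgroup S) (hA : A.index = 2) : Subgroup (S × S) where
  carrier := {x | x.1 ∈ A ↔ x.2 ∈ A}
  one_mem' := by
    show (1 : S × S).1 ∈ A ↔ (1 : S × S).2 ∈ A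
    simp [one_mem]
  mul_mem' := by
    rintro ⟨a, b⟩ ⟨a', b'⟩ h h'
    change a ∈ A ↔ b ∈ A at h
    change a' ∈ A ↔ b' ∈ A at h'
    show a * a' ∈ A ↔ b * b' ∈ A
    rw [Subgroup.mul_mem_iff_of_index_two hA, Subgroup.mul_mem_iff_of_index_two hA, h, h']
  inv_mem' := by
    rintro ⟨a, b⟩ h
    change a ∈ A ↔ b ∈ A at h
    show a⁻¹ ∈ A ↔ b⁻¹ ∈ A
    rw [inv_mem_iff, inv_mem_iff]
    exact h

theorem mem_K2 {S : Type*} [Group S] (A : Subgroup S) (hA : A.index = 2) (a b : S) :
    (a, b) ∈ K2 A hA ↔ (a ∈ A ↔ b ∈ A) := Iff.rfl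

theorem K2_index {S : Type*} [Group S] (A : Subgroup S) (hA : A.index = 2) :
    (K2 A hA).index = 2 := by
  obtain ⟨s, hs⟩ : ∃ s, s ∉ A := by
    by_contra hcon
    push Not at hcon
    have : A = ⊤ := (Subgroup.eq_top_iff' A).2 hcon
    rw [this, Subgroup.index_top] at hA
    omega
  rw [Subgroup.index_eq_two_iff]
  refine ⟨(1, s), ?_⟩
  rintro ⟨b₁, b₂⟩
  show Xor ((b₁ * 1 ∈ A ↔ b₂ * s ∈ A)) (b₁ ∈ A ↔ b₂ ∈ A)
  rw [mul_one, Subgroup.mul_mem_iff_of_index_two hA]
  unfold Xor
  tauto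

section main

open Cfsg.Agent.Helper5 Cfsg.Agent.S0299 Matrix
open scoped commutatorElement

variable {F : Type*} [Field F] [Fintype F]

theorem two_eq_zero_of_card (hF : Fintype.card F = 2) : (2 : F) = 0 := by
  have := Nat.cast_card_eq_zero F
  rw [hF] at this
  exact_mod_cast this

theorem phi_injective (h2 : (2 : F) = 0) : Function.Injective (phi F) := by
  have hker := card_phi_ker_le (F := F)
  rw [center_SL2_eq_bot h2, Subgroup.card_bot] at hker
  have : (phi F).ker = ⊥ := (Subgroup.card_le_one_iff_eq_bot _).1 hker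
  exact (MonoidHom.ker_eq_bot_iff _).1 this

omit [Fintype F] in
theorem tau_conj (a b : SpecialLinearGroup (Fin 2) F) :
    toIso F (Cfsg.quadFormPlus 2 F) (o4T F) * phi F (a, b) *
      (toIso F (Cfsg.quadFormPlus 2 F) (o4T F))⁻¹ = phi F (b, a) := by
  rw [phi_apply, phi_apply, ← map_inv, ← map_mul, ← map_mul]
  congr 1
  rw [o4T_inv]
  have h1 : o4T F * o4L F a = o4R F a * o4T F := o4_conj a
  have h2 : o4T F * o4R F b = o4L F b * o4T F := by
    rw [o4L_eq_conj b, o4T_inv]
    calc o4T F * o4R F b = o4T F * o4R F b * (o4T F * o4T F) := by rw [o4T_mul_self, mul_one]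
      _ = _ := by simp only [mul_assoc]
  calc o4T F * (o4L F a * o4R F b) * o4T F
      = (o4T F * o4L F a) * o4R F b * o4T F := by simp only [mul_assoc]
    _ = o4R F a * (o4T F * o4R F b) * o4T F := by rw [h1]; simp only [mul_assoc]
    _ = o4R F a * o4L F b * (o4T F * o4T F) := by rw [h2]; simp only [mul_assoc]
    _ = o4L F b * o4R F a := by rw [o4T_mul_self, mul_one, (o4_commute b a).eq]

theorem tau_not_mem (hS : Nat.card (SpecialLinearGroup (Fin 2) F) = 6)
    (hinj : Function.Injective (phi F)) :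
    toIso F (Cfsg.quadFormPlus 2 F) (o4T F) ∉ (phi F).range := by
  rintro ⟨⟨a, b⟩, hab⟩
  have key : ∀ s : SpecialLinearGroup (Fin 2) F, s = 1 := by
    intro s
    have h := tau_conj s (1 : SpecialLinearGroup (Fin 2) F)
    rw [← hab, ← map_inv, ← map_mul, ← map_mul] at h
    have h' := hinj h
    have := congrArg Prod.snd h'
    simpa using this.symm
  have : Subsingleton (SpecialLinearGroup (Fin 2) F) :=
    ⟨fun x y => (key x).trans (key y).symm⟩
  have := Finite.card_le_one_iff_subsingleton.2 this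
  omega

theorem exists_index_two (hS : Nat.card (SpecialLinearGroup (Fin 2) F) = 6) :
    ∃ A : Subgroup (SpecialLinearGroup (Fin 2) F), A.index = 2 := by
  have : Fact (Nat.Prime 3) := ⟨by norm_num⟩
  obtain ⟨A, hA⟩ := Sylow.exists_subgroup_card_pow_prime 3 (n := 1)
    (by rw [hS]; norm_num : 3 ^ 1 ∣ Nat.card (SpecialLinearGroup (Fin 2) F))
  refine ⟨A, ?_⟩
  have := Subgroup.card_mul_index A
  rw [hA, hS] at this
  omega

theorem omega_facts (hF : Fintype.card F = 2) :
    (¬ 4 ∣ Nat.card (Cfsg.POmega F (Cfsg.quadFormPlus 2 F))) ∧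
    (2 ∣ Nat.card (Matrix.ProjectiveSpecialLinearGroup (Fin 2) F)) ∧
    ∃ g : Cfsg.POmega F (Cfsg.quadFormPlus 2 F) →*
        Matrix.ProjectiveSpecialLinearGroup (Fin 2) F, Function.Surjective g := by
  classical
  have h2 := two_eq_zero_of_card hF
  have hinj := phi_injective h2
  have hS : Nat.card (SpecialLinearGroup (Fin 2) F) = 6 := by rw [card_SL2, hF]; norm_num
  have hO : Nat.card (Cfsg.isometryGroup F (Cfsg.quadFormPlus 2 F)) = 72 := by
    rw [card_GO_plus 2 (by norm_num), hF]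
    simp
  have hcard : Nat.card (Cfsg.isometryGroup F (Cfsg.quadFormPlus 2 F)) =
      2 * Nat.card (SpecialLinearGroup (Fin 2) F × SpecialLinearGroup (Fin 2) F) := by
    rw [hO, Nat.card_prod, hS]
  have hidx : (phi F).range.index = 2 := by
    rw [index_range_eq_mul (phi F) 2 hcard, (MonoidHom.ker_eq_bot_iff _).2 hinj, Subgroup.card_bot]
  have hnormal : (phi F).range.Normal := Subgroup.normal_of_index_eq_two hidx
  obtain ⟨A, hA⟩ := exists_index_two hS
  have hNcard : Nat.card ((K2 A hA).map (phi F)) = 18 := by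
    rw [Subgroup.card_map_of_injective hinj]
    have := Subgroup.card_mul_index (K2 A hA)
    rw [K2_index, Nat.card_prod, hS] at this
    omega
  have hNidx : ((K2 A hA).map (phi F)).index = 4 := by
    have := Subgroup.card_mul_index ((K2 A hA).map (phi F))
    rw [hNcard, hO] at this
    omega
  have hNn : ((K2 A hA).map (phi F)).Normal := by
    refine normal_of_index_le_four_of_conj _ (phi F).range (Subgroup.map_le_range _ _) hNidx.le
      (toIso F (Cfsg.quadFormPlus 2 F) (o4T F)) (tau_not_mem hS hinj) ?_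
    rintro _ ⟨⟨a, b⟩, hab, rfl⟩
    refine ⟨(b, a), ?_, ?_⟩
    · exact ((mem_K2 A hA b a).2 ((mem_K2 A hA a b).1 hab).symm)
    · have := tau_conj b a
      rw [← this]
      group
  have hΩN : commutator (Cfsg.isometryGroup F (Cfsg.quadFormPlus 2 F)) ≤ (K2 A hA).map (phi F) :=
    commutator_le_of_normal_index_le_four _ hNidx.le
  have h18 : Nat.card (Cfsg.Omega F (Cfsg.quadFormPlus 2 F)) ∣ 18 := by
    rw [← hNcard]
    exact Subgroup.card_dvd_of_le hΩN
  have hP18 : Nat.card (Cfsg.POmega F (Cfsg.quadFormPlus 2 F)) ∣ 18 :=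
    (Subgroup.card_quotient_dvd_card _).trans h18
  refine ⟨fun h4 => by have := h4.trans hP18; omega, ?_, ?_⟩
  · have hc : Nat.card (Subgroup.center (SpecialLinearGroup (Fin 2) F)) = 1 := by
      rw [center_SL2_eq_bot h2, Subgroup.card_bot]
    have := Subgroup.card_eq_card_quotient_mul_card_subgroup
      (Subgroup.center (SpecialLinearGroup (Fin 2) F))
    rw [hc, mul_one, hS] at this
    show 2 ∣ Nat.card (SpecialLinearGroup (Fin 2) F ⧸
      Subgroup.center (SpecialLinearGroup (Fin 2) F))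
    rw [← this]
    norm_num
  · have hΩH : commutator (Cfsg.isometryGroup F (Cfsg.quadFormPlus 2 F)) ≤ (phi F).range :=
      hΩN.trans (Subgroup.map_le_range _ _)
    let e := MonoidHom.ofInjective hinj
    let ψ : ↥(commutator (Cfsg.isometryGroup F (Cfsg.quadFormPlus 2 F))) →*
        SpecialLinearGroup (Fin 2) F :=
      (MonoidHom.fst _ _).comp (e.symm.toMonoidHom.comp (Subgroup.inclusion hΩH))
    have hψ : Function.Surjective ψ := by
      intro a
      have hmem : phi F (a, a⁻¹) ∈ commutator (Cfsg.isometryGroup F (Cfsg.quadFormPlus 2 F)) := by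
        have e1 : phi F (a, a⁻¹) =
            ⁅phi F (a, 1), toIso F (Cfsg.quadFormPlus 2 F) (o4T F)⁆ := by
          have h := tau_conj (a⁻¹) (1 : SpecialLinearGroup (Fin 2) F)
          rw [commutatorElement_def]
          have h3 : phi F (a, a⁻¹) = phi F (a, 1) * phi F (1, a⁻¹) := by
            rw [← map_mul, Prod.mk_mul_mk, mul_one, one_mul]
          have h4 : (phi F (a, 1))⁻¹ = phi F (a⁻¹, 1) := by
            rw [← map_inv, Prod.inv_mk, inv_one]
          rw [h3, ← h, h4]
          group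
        rw [e1, commutator_def]
        exact Subgroup.commutator_mem_commutator (Subgroup.mem_top _) (Subgroup.mem_top _)
      refine ⟨⟨_, hmem⟩, ?_⟩
      have h5 : e.symm ⟨phi F (a, a⁻¹), ⟨(a, a⁻¹), rfl⟩⟩ = (a, a⁻¹) :=
        e.symm_apply_apply (a, a⁻¹)
      show (e.symm ⟨phi F (a, a⁻¹), _⟩).1 = a
      rw [h5]
    have hcen : Subgroup.center (Cfsg.Omega F (Cfsg.quadFormPlus 2 F)) ≤
        ((QuotientGroup.mk' (Subgroup.center (SpecialLinearGroup (Fin 2) F))).comp ψ).ker := by
      intro x hx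
      rw [MonoidHom.mem_ker, MonoidHom.comp_apply, QuotientGroup.mk'_apply,
        QuotientGroup.eq_one_iff, Subgroup.mem_center_iff]
      intro s
      obtain ⟨y, rfl⟩ := hψ s
      rw [← map_mul, ← map_mul, Subgroup.mem_center_iff.1 hx y]
    refine ⟨QuotientGroup.lift _ _ hcen, ?_⟩
    intro t
    obtain ⟨s, rfl⟩ := QuotientGroup.mk'_surjective _ t
    obtain ⟨y, rfl⟩ := hψ s
    exact ⟨(y : _ ⧸ _), rfl⟩

end main

-- === PIECE PLUS22 ===  (the degenerate case: Ω_4^+(2) of order 18)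
theorem p_PLUS22 {F : Type*} [Field F] [Fintype F] (p : ℕ) [Fact p.Prime] [CharP F p]
    (hF : Fintype.card F = 2) :
    ∃ χ : Cfsg.POmega F (Cfsg.quadFormPlus 2 F) → ℂ,
      Cfsg.IsIrrCharacter (Cfsg.POmega F (Cfsg.quadFormPlus 2 F)) χ ∧
      ∀ P : Sylow p (Cfsg.POmega F (Cfsg.quadFormPlus 2 F)), χ 1 = Nat.card P ∧
        ∀ x : Cfsg.POmega F (Cfsg.quadFormPlus 2 F), x ∈ P → x ≠ 1 → χ x = 0 := by
  classical
  have hp2 : p = 2 := by
    have h1 : ((2 : ℕ) : F) = 0 := by
      have := Nat.cast_card_eq_zero F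
      rwa [hF] at this
    have h2 : p ∣ 2 := (CharP.cast_eq_zero_iff F p 2).1 h1
    exact (Nat.prime_dvd_prime_iff_eq (Fact.out : p.Prime) Nat.prime_two).1 h2
  subst hp2
  obtain ⟨h4, h2, g, hg⟩ := omega_facts hF
  exact st_pull2 g hg h4 h2 (Cfsg.Agent.S2544.result 2 2 le_rfl)

end Cfsg.Agent.Helper6.StPLUS22
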