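import Mathlib
import Cfsg.Prelude.Def_Sporadic_a

/-!
Counting in Steiner systems (`Cfsg.IsSteinerSystem`): the number of blocks through a set, and
the "moment sums" of the intersection sizes of a fixed block with all blocks.
-/

set_option autoImplicit false
set_option linter.unusedSectionVars false
set_option linter.unusedVariables false

namespace Cfsg.Agent.Helper6

open Finset

section Steiner

variable {α : Type*} [Fintype α] [DecidableEq α]

open Classical in
/-- the blocks as a finset -/
noncomputable def blocksF (B : Set (Finset α)) : Finset (Finset α) :=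
  Finset.univ.filter (· ∈ B)

theorem mem_blocksF {B : Set (Finset α)} {b : Finset α} : b ∈ blocksF B ↔ b ∈ B := by
  unfold blocksF
  simp

theorem ncard_eq_card_blocksF (B : Set (Finset α)) : B.ncard = (blocksF B).card := by
  rw [← Set.ncard_coe_finset (blocksF B)]
  congr 1
  ext b
  simp [mem_blocksF]

/-- the number of `t`-subsets of `b` containing `T` -/
theorem card_filter_between {T b : Finset α} (hT : T ⊆ b) (t : ℕ) (hj : T.card ≤ t) :
    ((b.powersetCard t).filter (T ⊆ ·)).card = Nat.choose (b.card - T.card) (t - T.card) := by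
  rw [← Finset.card_sdiff_of_subset hT, ← Finset.card_powersetCard (t - T.card) (b \ T)]
  apply Finset.card_nbij' (fun s => s \ T) (fun u => u ∪ T)
  · intro s hs
    rw [Finset.mem_coe, Finset.mem_filter, Finset.mem_powersetCard] at hs
    rw [Finset.mem_coe, Finset.mem_powersetCard]
    refine ⟨Finset.sdiff_subset_sdiff hs.1.1 (Finset.Subset.refl T), ?_⟩
    rw [Finset.card_sdiff_of_subset hs.2, hs.1.2]
  · intro u hu
    rw [Finset.mem_coe, Finset.mem_powersetCard] at hu
    rw [Finset.mem_coe, Finset.mem_filter, Finset.mem_powersetCard]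
    have hdisj : Disjoint u T := by
      rw [Finset.disjoint_left]
      intro x hx hxT
      exact (Finset.mem_sdiff.1 (hu.1 hx)).2 hxT
    refine ⟨⟨Finset.union_subset (hu.1.trans Finset.sdiff_subset) hT, ?_⟩,
      Finset.subset_union_right⟩
    rw [Finset.card_union_of_disjoint hdisj, hu.2]
    omega
  · intro s hs
    rw [Finset.mem_coe, Finset.mem_filter, Finset.mem_powersetCard] at hs
    exact Finset.sdiff_union_of_subset hs.2
  · intro u hu
    rw [Finset.mem_coe, Finset.mem_powersetCard] at hu
    have hdisj : Disjoint u T := by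
      rw [Finset.disjoint_left]
      intro x hx hxT
      exact (Finset.mem_sdiff.1 (hu.1 hx)).2 hxT
    exact Finset.union_sdiff_cancel_right hdisj

/-- the number of blocks through a set `T` of at most `t` points -/
theorem steiner_count {t k : ℕ} {B : Set (Finset α)} (hB : Cfsg.IsSteinerSystem t k B)
    (T : Finset α) (hT : T.card ≤ t) :
    ((blocksF B).filter (T ⊆ ·)).card * Nat.choose (k - T.card) (t - T.card) =
      Nat.choose (Fintype.card α - T.card) (t - T.card) := by
  have hcard : ∀ b ∈ (blocksF B).filter (T ⊆ ·),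
      ((b.powersetCard t).filter (T ⊆ ·)).card = Nat.choose (k - T.card) (t - T.card) := by
    intro b hb
    rw [Finset.mem_filter, mem_blocksF] at hb
    rw [card_filter_between hb.2 t hT, hB.1 b hb.1]
  have hdisj : (((blocksF B).filter (T ⊆ ·) : Finset (Finset α)) : Set (Finset α)).PairwiseDisjoint
      (fun b => (b.powersetCard t).filter (T ⊆ ·)) := by
    intro b hb b' hb' hne
    rw [Function.onFun, Finset.disjoint_left]
    intro s hs hs'
    apply hne
    rw [Finset.mem_coe, Finset.mem_filter, mem_blocksF] at hb hb'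
    simp only [mem_filter, mem_powersetCard] at hs hs'
    obtain ⟨b₀, _, huniq⟩ := hB.2 s hs.1.2
    rw [huniq b ⟨hb.1, hs.1.1⟩, huniq b' ⟨hb'.1, hs'.1.1⟩]
  have hunion : ((blocksF B).filter (T ⊆ ·)).biUnion (fun b => (b.powersetCard t).filter (T ⊆ ·))
      = ((Finset.univ : Finset α).powersetCard t).filter (T ⊆ ·) := by
    ext s
    simp only [mem_biUnion, mem_filter, mem_powersetCard, mem_blocksF, subset_univ, true_and]
    constructor
    · rintro ⟨b, _, h⟩
      exact ⟨h.1.2, h.2⟩
    · rintro ⟨hs, hTs⟩
      obtain ⟨b, hb, _⟩ := hB.2 s hs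
      exact ⟨b, ⟨hb.1, hTs.trans hb.2⟩, ⟨hb.2, hs⟩, hTs⟩
  have h1 := Finset.card_biUnion hdisj
  rw [hunion, card_filter_between (Finset.subset_univ T) t hT, Finset.card_univ,
    Finset.sum_congr rfl hcard, Finset.sum_const, smul_eq_mul] at h1
  exact h1.symm

/-- `|B| * C(k,t) = C(v,t)` -/
theorem steiner_card {t k : ℕ} {B : Set (Finset α)} (hB : Cfsg.IsSteinerSystem t k B) :
    B.ncard * Nat.choose k t = Nat.choose (Fintype.card α) t := by
  have h := steiner_count hB ∅ (by simp)
  have e : (blocksF B).filter ((∅ : Finset α) ⊆ ·) = blocksF B := by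
    apply Finset.filter_true_of_mem
    intro b _
    exact Finset.empty_subset b
  rw [e] at h
  simpa [ncard_eq_card_blocksF] using h

/-- moment sums: `(∑_c C(|b ∩ c|, j)) * C(k-j, t-j) = C(k,j) * C(v-j, t-j)` -/
theorem steiner_moment {t k : ℕ} {B : Set (Finset α)} (hB : Cfsg.IsSteinerSystem t k B)
    {b : Finset α} (hb : b ∈ B) (j : ℕ) (hj : j ≤ t) :
    (∑ c ∈ blocksF B, Nat.choose (b ∩ c).card j) * Nat.choose (k - j) (t - j) =
      Nat.choose k j * Nat.choose (Fintype.card α - j) (t - j) := by
  have h1 : ∀ c : Finset α, Nat.choose (b ∩ c).card j =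
      ∑ T ∈ b.powersetCard j, (if T ⊆ c then 1 else 0) := by
    intro c
    rw [← Finset.card_powersetCard, ← Finset.card_filter]
    congr 1
    ext T
    simp only [mem_powersetCard, mem_filter, Finset.subset_inter_iff]
    tauto
  have h2 : ∑ c ∈ blocksF B, Nat.choose (b ∩ c).card j =
      ∑ T ∈ b.powersetCard j, ((blocksF B).filter (T ⊆ ·)).card := by
    rw [Finset.sum_congr rfl (fun c _ => h1 c), Finset.sum_comm]
    apply Finset.sum_congr rfl
    intro T _
    rw [Finset.card_filter]
  rw [h2, Finset.sum_mul]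
  have h3 : ∀ T ∈ b.powersetCard j, ((blocksF B).filter (T ⊆ ·)).card * Nat.choose (k - j) (t - j) =
      Nat.choose (Fintype.card α - j) (t - j) := by
    intro T hT
    rw [mem_powersetCard] at hT
    have := steiner_count hB T (by rw [hT.2]; exact hj)
    rw [hT.2] at this
    exact this
  rw [Finset.sum_congr rfl h3, Finset.sum_const, Finset.card_powersetCard, hB.1 b hb, smul_eq_mul]

/-- the same with the block `b` itself split off -/
theorem steiner_moment_erase {t k : ℕ} {B : Set (Finset α)} (hB : Cfsg.IsSteinerSystem t k B)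
    {b : Finset α} (hb : b ∈ B) (j : ℕ) (hj : j ≤ t) :
    (∑ c ∈ (blocksF B).erase b, Nat.choose (b ∩ c).card j + Nat.choose k j) *
        Nat.choose (k - j) (t - j) =
      Nat.choose k j * Nat.choose (Fintype.card α - j) (t - j) := by
  rw [← steiner_moment hB hb j hj]
  congr 1
  rw [← Finset.sum_erase_add _ _ (mem_blocksF.2 hb), Finset.inter_self, hB.1 b hb]

/-- numeral-friendly form of `steiner_moment_erase` -/
theorem steiner_moment_erase' {t k : ℕ} {B : Set (Finset α)} (hB : Cfsg.IsSteinerSystem t k B)
    {b : Finset α} (hb : b ∈ B) (j : ℕ) (hj : j ≤ t) {v A C D : ℕ} (hv : Fintype.card α = v)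
    (hA : Nat.choose k j = A) (hC : Nat.choose (k - j) (t - j) = C)
    (hD : Nat.choose (v - j) (t - j) = D) :
    (∑ c ∈ (blocksF B).erase b, Nat.choose (b ∩ c).card j + A) * C = A * D := by
  have := steiner_moment_erase hB hb j hj
  rw [hv, hA, hC, hD] at this
  exact this

/-- two distinct blocks meet in fewer than `t` points -/
theorem steiner_inter_lt {t k : ℕ} {B : Set (Finset α)} (hB : Cfsg.IsSteinerSystem t k B)
    {b c : Finset α} (hb : b ∈ B) (hc : c ∈ B) (hne : b ≠ c) : (b ∩ c).card < t := by
  by_contra hge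
  rw [not_lt] at hge
  obtain ⟨s, hs, hscard⟩ := Finset.exists_subset_card_eq hge
  obtain ⟨b₀, _, huniq⟩ := hB.2 s hscard
  apply hne
  rw [huniq b ⟨hb, hs.trans Finset.inter_subset_left⟩,
    huniq c ⟨hc, hs.trans Finset.inter_subset_right⟩]

/-- a block through a set of `t` points is unique -/
theorem steiner_unique {t k : ℕ} {B : Set (Finset α)} (hB : Cfsg.IsSteinerSystem t k B)
    {b c s : Finset α} (hb : b ∈ B) (hc : c ∈ B) (hs : s.card = t) (hsb : s ⊆ b) (hsc : s ⊆ c) :
    b = c := by
  obtain ⟨b₀, _, huniq⟩ := hB.2 s hs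
  rw [huniq b ⟨hb, hsb⟩, huniq c ⟨hc, hsc⟩]

end Steiner

end Cfsg.Agent.Helper6
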